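/- ALTSEC2 tower, slot 77: small modules of `A₁₄` and `2.A₁₄` by the weights of `7 × 7`. -/
import Cfsg.Agent.H40.ASK3
import Cfsg.Agent.H71.ASRed

set_option autoImplicit false

namespace H17.AS77
open Equiv Equiv.Perm Module H57 H49 H40.AS

section Lin
variable {k V : Type} [Field k] [AddCommGroup V] [Module k V] [FiniteDimensional k V]
  [IsAlgClosed k]

/-- An invariant subspace is the sum of its intersections with the eigenspaces. -/
theorem split {f : End k V} {n : ℕ} (hn : (n : k) ≠ 0) (hf : f ^ n = 1) {U : Submodule k V}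
    (hU : ∀ v ∈ U, f v ∈ U) {ι : Type} [Fintype ι] {c : ι → k} (hc : Function.Injective c)
    (hs : ∀ μ, ∀ v ∈ U, v ≠ 0 → f v = μ • v → ∃ i, μ = c i) :
    finrank k U = ∑ i, finrank k ↥(U ⊓ f.eigenspace (c i)) := by
  rw [← H71.AS.finrank_biSup (D := fun i => U ⊓ f.eigenspace (c i))
    (((End.eigenspaces_iSupIndep f).comp hc).mono fun _ => inf_le_right)]
  suffices e : U = ⨆ i ∈ Finset.univ, U ⊓ f.eigenspace (c i) from
    congrArg (fun X : Submodule k V => finrank k X) e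
  refine le_antisymm (fun v hv => ?_) (iSup₂_le fun _ _ => inf_le_left)
  have := H22.ext_of_wt (fun _ : Unit => f.restrict hU) (fun _ _ => Commute.refl _)
    (fun _ => ⟨n, hn, by
      ext w
      rw [End.pow_restrict, LinearMap.coe_restrict_apply, hf]
      rfl⟩)
    ((⨆ i ∈ Finset.univ, U ⊓ f.eigenspace (c i)).mkQ ∘ₗ U.subtype) 0 fun χ w hw => by
      refine (Submodule.Quotient.mk_eq_zero _).2 ?_
      by_cases h0 : (w : V) = 0
      · exact (Submodule.subtype_apply w).trans h0 ▸ Submodule.zero_mem _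
      have e : f w = χ () • (w : V) := congrArg Subtype.val (hw ())
      obtain ⟨i, hi⟩ := hs _ w w.2 h0 e
      exact Submodule.mem_iSup_of_mem i (Submodule.mem_iSup_of_mem (Finset.mem_univ i)
        ⟨w.2, End.mem_eigenspace_iff.2 (hi ▸ e)⟩)
  exact (Submodule.Quotient.mk_eq_zero _).1 (LinearMap.congr_fun this ⟨v, hv⟩)

theorem split2 {f : End k V} {n : ℕ} (hn : (n : k) ≠ 0) (hf : f ^ n = 1) {U : Submodule k V}
    (hU : ∀ v ∈ U, f v ∈ U) {c d : k} (hc : c ≠ d)
    (hs : ∀ μ, ∀ v ∈ U, v ≠ 0 → f v = μ • v → μ = c ∨ μ = d) :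
    finrank k U = finrank k ↥(U ⊓ f.eigenspace c) + finrank k ↥(U ⊓ f.eigenspace d) :=
  (split hn hf hU (c := ![c, d]) (by
      intro s t e
      fin_cases s <;> fin_cases t <;> first | rfl | exact absurd e hc | exact absurd e.symm hc)
    fun μ v hv v0 e => (hs μ v hv v0 e).elim (fun a => ⟨0, a⟩) fun a => ⟨1, a⟩).trans
    (Fin.sum_univ_two _)

end Lin

theorem eq_of_le {A : Type} [Fintype A] {d : A → ℕ} {T : A → A} (hT : Function.Injective T)
    (h : ∀ a, d a ≤ d (T a)) (a : A) : d (T a) = d a :=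
  ((Finset.sum_eq_sum_iff_of_le fun a _ => h a).1
    (Equiv.sum_comp (Equiv.ofBijective T (Finite.injective_iff_bijective.1 hT)) d).symm a
      (Finset.mem_univ a)).symm

theorem iter_eq {A : Type} {d : A → ℕ} {T : A → A} (h : ∀ a, d (T a) = d a) (n : ℕ) (a : A) :
    d (T^[n] a) = d a := by
  induction n with
  | zero => rfl
  | succ n ih => rw [Function.iterate_succ_apply', h, ih]

section Grp
variable {Ω : Type} [Fintype Ω] [DecidableEq Ω] {H : Type} [Group H] {π : H →* Perm Ω}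

theorem uniq_odd (C : Cv π) {n : ℕ} (hn : Odd n) {g h : H} (e : π g = π h) (hg : g ^ n = 1)
    (hh : h ^ n = 1) : g = h := by
  have k : π (g * h⁻¹) = 1 := by rw [map_mul, map_inv, e, mul_inv_cancel]
  have := (show Commute (g * h⁻¹) h from C.cen _ k h).mul_pow n
  obtain ⟨m, rfl⟩ := hn
  rw [inv_mul_cancel_right, hg, hh, mul_one, pow_succ, pow_mul, pow_two, C.sq _ k, one_pow,
    one_mul] at this
  exact mul_inv_eq_one.1 this.symm

theorem lift_odd' (C : Cv π) {n : ℕ} (hn : Odd n) {σ : Perm Ω} (h : sign σ = 1)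
    (h3 : σ ^ n = 1) : ∃ g, π g = σ ∧ g ^ n = 1 := by
  obtain ⟨g, rfl⟩ := C.lift h
  have := C.sq (g ^ n) (by rw [map_pow, h3])
  refine ⟨g ^ (n + 1), by rw [map_pow, pow_succ, h3, one_mul], ?_⟩
  obtain ⟨m, hm⟩ := hn.add_one
  rw [← pow_mul, mul_comm, pow_mul, hm, ← two_mul, pow_mul, pow_two, this, one_pow]

theorem rel_odd (C : Cv π) {n : ℕ} (hn : Odd n) {x y g : H} (hx : x ^ n = 1) (hy : y ^ n = 1)
    {j : ℕ} (e : π x * π g = π g * π y ^ j) : x * g = g * y ^ j := by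
  rw [← mul_inv_eq_iff_eq_mul.1 (uniq_odd C hn (g := g * y ^ j * g⁻¹) (h := x) (by
    rw [map_mul, map_mul, map_inv, map_pow, ← e, mul_inv_cancel_right])
    (by rw [conj_pow, ← pow_mul, mul_comm j, pow_mul, hy, one_pow, mul_one, mul_inv_cancel]) hx)]

variable {k : Type} [Field k] {V : Type} [AddCommGroup V] [Module k V]
  {ρ : Representation k H V}

theorem eig_move {x y g : H} {j : ℕ} (e : x * g = g * y ^ j) {c : k} {v : V}
    (h : v ∈ End.eigenspace (ρ y) c) : ρ g v ∈ End.eigenspace (ρ x) (c ^ j) := by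
  rw [mem_eig] at h ⊢
  rw [← rho_mul, e, rho_mul, rho_pow h, map_smul]

variable [FiniteDimensional k V] [IsAlgClosed k] {z : H} (D : DC z π) (h2 : (2 : k) ≠ 0)
  (hz : ρ z = -1)
include D h2 hz

/-- Halving: a block of four points splits an invariant subspace into two halves. -/
theorem half (f : Fin 4 ↪ Ω) {W : Submodule k V} (hW : Inv π ρ (Set.range f) W) :
    ∃ W' : Submodule k V, finrank k W = 2 * finrank k W' ∧
      ∀ T : Set Ω, Disjoint (Set.range f) T → Inv π ρ T W → Inv π ρ T W' := by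
  have d1 : DT (em f (swap 0 1 * swap 2 3)) := DT.em ⟨0, 1, 2, 3, by decide, rfl⟩ f
  have d2 : DT (em f (swap 0 2 * swap 1 3)) := DT.em ⟨0, 2, 1, 3, by decide, rfl⟩ f
  obtain ⟨a, ha⟩ := D.lift d1.sign
  obtain ⟨b, hb⟩ := D.lift d2.sign
  have an := conj_an D hz (an_of_dt D d2 d1 (by
    rw [← map_mul]; exact DT.em ⟨0, 3, 1, 2, by decide, by decide⟩ f) b a hb ha)
  have aa : a * a = z := sq_dt D (ha ▸ d1)
  have sa : SuppIn (π a) (Set.range f) := ha ▸ suppIn_em f _
  have sb : SuppIn (π b) (Set.range f) := hb ▸ suppIn_em f _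
  obtain ⟨i, hi⟩ := IsAlgClosed.exists_eq_mul_self (-1 : k)
  have i0 : i ≠ 0 := by rintro rfl; simp at hi
  have ni : i ≠ -i := fun e => i0 (by
    have : (2 : k) * i = 0 := by linear_combination e
    exact (mul_eq_zero.1 this).resolve_left h2)
  have s := split2 (f := ρ a) (n := 2 * 2) (by
      rw [Nat.cast_mul]; exact mul_ne_zero (by exact_mod_cast h2) (by exact_mod_cast h2))
    (by rw [← map_pow, pow_mul, pow_two a, aa, pow_two, D.zz, map_one])
    (hW a sa) ni fun μ v _ v0 e => by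
      have e2 := rho_mul (ρ := ρ) a a v
      rw [aa, hz, e, map_smul, e, smul_smul] at e2
      have e3 : μ * μ = i * i := smul_left_injective k v0 (by
        simp only [← hi, ← e2]; simp)
      exact mul_self_eq_mul_self_iff.1 e3
  have mv : ∀ c : k, finrank k ↥(W ⊓ End.eigenspace (ρ a) c) ≤
      finrank k ↥(W ⊓ End.eigenspace (ρ a) (-c)) := fun c =>
    finrank_le_of_map b fun v hv => ⟨hW b sb v hv.1, by
      have hv2 := mem_eig.1 hv.2
      refine mem_eig.2 ?_
      rw [← map_smul, neg_smul, ← hv2, ← an, ← rho_mul, ← rho_mul]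
      congr 2
      group⟩
  have m1 := mv i
  have m2 := mv (-i)
  rw [neg_neg] at m2
  refine ⟨W ⊓ End.eigenspace (ρ a) i, ?_, fun T hT hi g hg v hv => ⟨hi g hg v hv.1,
    eig_inv (D.commute_of_disjoint (disjoint_of_suppIn sa hg hT)) hv.2⟩⟩
  omega

/-- In a spin module, a subspace invariant under the cover of `A_T` with `4 m ≤ |T|` has dimension
divisible by `2 ^ m`. -/
theorem two_pow_dvd (m : ℕ) : ∀ {T : Finset Ω} {W : Submodule k V}, 4 * m ≤ T.card →
    Inv π ρ T W → 2 ^ m ∣ finrank k W := by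
  induction m with
  | zero => intro T W _ _; simp
  | succ m ih =>
    intro T W hT hW
    obtain ⟨f, hf⟩ := exists_emb T (m := 4) (by omega)
    obtain ⟨W', e, hW'⟩ := half D h2 hz f (hW.mono hf)
    have := ih (T := T \ Finset.univ.map f) (W := W') (by
      have := Finset.le_card_sdiff (Finset.univ.map f) T
      simp only [Finset.card_map, Finset.card_univ, Fintype.card_fin] at this
      omega) (hW' _ (by
        rw [Set.disjoint_left]
        rintro _ ⟨i, rfl⟩
        simp) (hW.mono (by simp)))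
    rw [e, pow_succ']
    exact Nat.mul_dvd_mul_left 2 this

theorem eight_dvd (f : Fin 12 ↪ Ω) {W : Submodule k V} (hW : Inv π ρ (Set.range f) W) :
    8 ∣ finrank k W :=
  two_pow_dvd D h2 hz 3 (T := Finset.univ.map f) (by simp) (by simpa using hW)

end Grp

/-! ### the weights of `7 × 7` -/

def c1 : Perm (Fin 14) := List.formPerm [0, 1, 2, 3, 4, 5, 6]
def c2 : Perm (Fin 14) := List.formPerm [7, 8, 9, 10, 11, 12, 13]
def g1 : Perm (Fin 14) := List.formPerm [1, 2, 4] * List.formPerm [3, 6, 5]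
def g2 : Perm (Fin 14) := List.formPerm [1, 3, 2, 6, 4, 5] * List.formPerm [8, 10, 9, 13, 11, 12]
def g3 : Perm (Fin 14) := List.formPerm [1, 3, 2, 6, 4, 5] *
  (swap 0 7 * swap 1 8 * swap 2 9 * swap 3 10 * swap 4 11 * swap 5 12 * swap 6 13)

/-- The second block. -/
def T7 : Finset (Fin 14) := {7, 8, 9, 10, 11, 12, 13}

def T1 (a : Fin 7 × Fin 7) : Fin 7 × Fin 7 := (a.1 * 4, a.2)
def T2 (a : Fin 7 × Fin 7) : Fin 7 × Fin 7 := (a.1 * 5, a.2 * 5)
def T3 (a : Fin 7 × Fin 7) : Fin 7 × Fin 7 := (a.2 * 5, a.1)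

def rp (a b : Fin 7) : Fin 7 × Fin 7 :=
  if a = 0 ∧ b = 0 then (0, 0) else if a = 0 ∨ b = 0 then (1, 0) else (1, 1)

theorem orb : ∀ a b : Fin 7, ∃ i : Fin 3, ∃ j : Fin 6, ∃ l : Fin 2,
    T1^[i] (T2^[j] (T3^[l] (rp a b))) = (a, b) := by decide +kernel

theorem const {d : Fin 7 × Fin 7 → ℕ} (h1 : ∀ a, d a ≤ d (T1 a)) (h2 : ∀ a, d a ≤ d (T2 a))
    (h3 : ∀ a, d a ≤ d (T3 a)) (a b : Fin 7) : d (a, b) = d (rp a b) := by
  obtain ⟨i, j, l, e⟩ := orb a b
  rw [← e, iter_eq (eq_of_le (by decide +kernel) h1), iter_eq (eq_of_le (by decide +kernel) h2),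
    iter_eq (eq_of_le (by decide +kernel) h3)]

theorem sums (d : Fin 7 × Fin 7 → ℕ) :
    ∑ a, ∑ b, d (rp a b) = d (0, 0) + 12 * d (1, 0) + 36 * d (1, 1) ∧
    ∑ b, d (rp 0 b) = d (0, 0) + 6 * d (1, 0) ∧ ∑ b, d (rp 1 b) = d (1, 0) + 6 * d (1, 1) := by
  simp +decide only [Fin.sum_univ_seven, rp, if_true, if_false]
  omega

section Core
variable {H : Type} [Group H] {π : H →* Perm (Fin 14)} {k : Type} [Field k] [IsAlgClosed k]
  {V : Type} [AddCommGroup V] [Module k V] [FiniteDimensional k V] [Nontrivial V]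
  {ρ : Representation k H V}

theorem core (C : Cv π) (h7 : ((7 : ℕ) : k) ≠ 0) (hd : finrank k V ≤ 56)
    (hF : ∀ W : Submodule k V, W ≠ ⊥ → Inv π ρ T7 W → Fai π ρ T7 W) :
    ∃ W : Submodule k V, Inv π ρ T7 W ∧
      (finrank k W = 7 ∨ finrank k W = 6 ∧ finrank k V = 36) := by
  have : NeZero ((7 : ℕ) : k) := ⟨h7⟩
  obtain ⟨ζ, hζ⟩ := HasEnoughRootsOfUnity.exists_primitiveRoot k 7
  have o7 : Odd 7 := by decide
  obtain ⟨y1, p1, o1⟩ := lift_odd' C o7 (σ := c1) (by decide +kernel) (by decide +kernel)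
  obtain ⟨y2, p2, o2⟩ := lift_odd' C o7 (σ := c2) (by decide +kernel) (by decide +kernel)
  let c : Fin 7 → k := fun a => ζ ^ (a : ℕ)
  have ci : Function.Injective c := fun a b e => Fin.ext (hζ.pow_inj a.2 b.2 e)
  have cm : ∀ a b : Fin 7, c a ^ (b : ℕ) = c (a * b) := fun a b => by
    simp only [c]
    rw [Fin.val_mul, ← pow_eq_pow_mod _ hζ.pow_eq_one, pow_mul]
  have sp : ∀ {y : H}, y ^ 7 = 1 → ∀ {U : Submodule k V}, (∀ v ∈ U, ρ y v ∈ U) →
      finrank k U = ∑ a, finrank k ↥(U ⊓ End.eigenspace (ρ y) (c a)) := fun o _ hU =>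
    split h7 (by rw [← map_pow, o, map_one]) hU ci fun μ v _ v0 e => by
      obtain ⟨i, hi, rfl⟩ := hζ.eq_pow_of_pow_eq_one (pow_eq_one_of e v0 o)
      exact ⟨⟨i, hi⟩, rfl⟩
  have mv : ∀ {x y g : H}, x ^ 7 = 1 → y ^ 7 = 1 → ∀ j : Fin 7, π x * π g = π g * π y ^ (j : ℕ) →
      ∀ {a : Fin 7} {v : V}, v ∈ End.eigenspace (ρ y) (c a) →
        ρ g v ∈ End.eigenspace (ρ x) (c (a * j)) := fun hx hy j e a v hv =>
    cm a j ▸ eig_move (rel_odd C o7 hx hy e) hv
  have mv1 : ∀ {x y g : H}, x ^ 7 = 1 → y ^ 7 = 1 → π x * π g = π g * π y →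
      ∀ {a : Fin 7} {v : V}, v ∈ End.eigenspace (ρ y) (c a) →
        ρ g v ∈ End.eigenspace (ρ x) (c a) := fun hx hy e a v hv => by
    simpa using mv hx hy 1 (by simpa using e) hv
  let d : Fin 7 × Fin 7 → ℕ := fun a =>
    finrank k ↥(End.eigenspace (ρ y1) (c a.1) ⊓ End.eigenspace (ρ y2) (c a.2))
  obtain ⟨u1, q1⟩ := C.lift (σ := g1) (by decide +kernel)
  obtain ⟨u2, q2⟩ := C.lift (σ := g2) (by decide +kernel)
  obtain ⟨u3, q3⟩ := C.lift (σ := g3) (by decide +kernel)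
  have hc := const (d := d)
    (fun a => finrank_le_of_map u1 fun v hv =>
      ⟨mv o1 o1 4 (by rw [p1, q1]; decide +kernel) hv.1,
        mv1 o2 o2 (by rw [p2, q1]; decide +kernel) hv.2⟩)
    (fun a => finrank_le_of_map u2 fun v hv =>
      ⟨mv o1 o1 5 (by rw [p1, q2]; decide +kernel) hv.1,
        mv o2 o2 5 (by rw [p2, q2]; decide +kernel) hv.2⟩)
    (fun a => finrank_le_of_map u3 fun v hv =>
      ⟨mv o1 o2 5 (by rw [p1, p2, q3]; decide +kernel) hv.2,
        mv1 o2 o1 (by rw [p1, p2, q3]; decide +kernel) hv.1⟩)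
  have s1 : SuppIn (π y1) (T7ᶜ : Finset (Fin 14)) := p1 ▸ (by unfold SuppIn; decide +kernel)
  have s2 : SuppIn (π y2) T7 := p2 ▸ (by unfold SuppIn; decide +kernel)
  have hI : ∀ a, Inv π ρ T7 (End.eigenspace (ρ y1) (c a)) := fun a g hg v hv =>
    mv1 o1 o1 (s1.commute hg (by rw [Finset.coe_compl]; exact disjoint_compl_left)).eq hv
  have e1 : ∀ a, finrank k (End.eigenspace (ρ y1) (c a)) = ∑ b, d (rp a b) := fun a =>
    (sp o2 (hI a y2 s2)).trans (Finset.sum_congr rfl fun b _ => hc a b)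
  have e0 := sp o1 (U := ⊤) fun _ _ => trivial
  rw [finrank_top, Finset.sum_congr rfl fun a _ => (by rw [top_inf_eq, e1 a])] at e0
  have K : ∀ a, finrank k (End.eigenspace (ρ y1) (c a)) = d (a, 0) → d (a, 0) = 0 := fun a e => by
    by_contra h0
    have e2 := Submodule.eq_of_le_of_finrank_eq inf_le_left e.symm
    have := hF _ (fun h => h0 (by rw [← e, h, finrank_bot])) (hI a) y2 s2 fun v hv => by
      simpa [c] using mem_eig.1 (e2.ge hv).2
    exact absurd (p2.symm.trans this) (by decide +kernel)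
  obtain ⟨t1, t2, t3⟩ := sums d
  have k0 := K 0
  have k1 := K 1
  have f0 := e1 0
  have f1 := e1 1
  have := finrank_pos (R := k) (M := V)
  exact ⟨_, hI 1, by omega⟩

end Core

theorem jobS14 : JobS14 := by
  intro p _ hp2 hp7 H _ z π D V _ _ _ _ ρ hz
  by_contra! hd
  have h2 : (2 : Kb p) ≠ 0 := by exact_mod_cast ne_zero_of_ne (k := Kb p) p Nat.prime_two hp2
  obtain ⟨W, hW, h⟩ := core (ρ := ρ) (cv_dc D) (ne_zero_of_ne p Nat.prime_seven hp7) hd
    fun W h0 hW => spin_fai D h2 hz (by decide) hW h0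
  have a := two_pow_dvd D h2 hz 1 (by decide) hW
  have b := two_pow_dvd D h2 hz 3 (T := Finset.univ) (by decide) (inv_top _)
  rw [finrank_top] at b
  omega

def x3 : alternatingGroup (Fin 14) := el (swap 7 8 * swap 7 9)
def x4 : alternatingGroup (Fin 14) := el (swap 10 11 * swap 10 12)
def u4 : alternatingGroup (Fin 14) := el (swap 11 12 * (swap 7 10 * swap 8 11 * swap 9 12))

theorem jobQ14 : JobQ14 := by
  intro V _ _ _ _ ρ hx
  by_contra! hd
  have t3 : (x3 : Perm (Fin 14)).IsThreeCycle :=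
    isThreeCycle_swap_mul_swap_same (by decide) (by decide) (by decide)
  have t4 : (x4 : Perm (Fin 14)).IsThreeCycle :=
    isThreeCycle_swap_mul_swap_same (by decide) (by decide) (by decide)
  have s3 : SuppIn x3.1 T7 := by unfold SuppIn; decide +kernel
  have s4 : SuppIn x4.1 T7 := by unfold SuppIn; decide +kernel
  have su : SuppIn u4.1 T7 := by unfold SuppIn; decide +kernel
  obtain ⟨W, hW, h⟩ := core (ρ := ρ) cv_alt (ne_zero_of_ne 2 Nat.prime_seven (by decide)) hd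
    fun W h0 hW => (triv_or_fai (by decide) hW).resolve_right fun e =>
      h0 ((Submodule.eq_bot_iff _).2 fun v hv => hx x3 t3 v (e x3 s3 v hv))
  have h3 : ((3 : ℕ) : Kb 2) ≠ 0 := ne_zero_of_ne 2 Nat.prime_three (by decide)
  obtain ⟨ω, hω⟩ := H71.AS.exists_omega (k := Kb 2)
  have w3 := w3 hω
  have nω : ω ≠ ω ^ 2 := fun e => h3 (by
    have : ω = 1 := by linear_combination -ω ^ 2 * e - (ω - 1) * w3
    rw [this] at hω
    push_cast
    linear_combination hω)
  have sp : ∀ {x : alternatingGroup (Fin 14)}, (x : Perm (Fin 14)).IsThreeCycle →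
      ∀ {U : Submodule (Kb 2) V}, (∀ v ∈ U, ρ x v ∈ U) → finrank (Kb 2) U =
        finrank (Kb 2) ↥(U ⊓ End.eigenspace (ρ x) ω) +
          finrank (Kb 2) ↥(U ⊓ End.eigenspace (ρ x) (ω ^ 2)) := fun {x} t U hU => by
    have o : x ^ 3 = 1 := Subtype.ext (by
      rw [Subgroup.coe_pow, ← t.orderOf, pow_orderOf_eq_one]; rfl)
    exact split2 h3 (by rw [← map_pow, o, map_one]) hU nω
      fun μ v _ v0 e => by
        have m3 := pow_eq_one_of e v0 o
        have m1 : μ ≠ 1 := by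
          rintro rfl
          exact v0 (hx x t v (by rwa [one_smul] at e))
        have : (μ - 1) * ((μ - ω) * (μ - ω ^ 2)) = 0 := by
          linear_combination m3 - μ ^ 2 * hω + μ * hω + (μ - 1) * w3
        exact (mul_eq_zero.1 ((mul_eq_zero.1 this).resolve_left (sub_ne_zero.2 m1))).imp
          sub_eq_zero.1 sub_eq_zero.1
  have c34 : Commute x3 x4 := show x3 * x4 = x4 * x3 by decide +kernel
  have a0 := sp t3 (hW x3 s3)
  have a1 := fun α => sp t4 (U := W ⊓ End.eigenspace (ρ x3) α) fun v hv =>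
    ⟨hW x4 s4 v hv.1, eig_inv c34 hv.2⟩
  have mv : ∀ α β, finrank (Kb 2) ↥(W ⊓ End.eigenspace (ρ x3) α ⊓ End.eigenspace (ρ x4) β) ≤
      finrank (Kb 2) ↥(W ⊓ End.eigenspace (ρ x3) β ⊓ End.eigenspace (ρ x4) (α ^ 2)) := fun α β =>
    finrank_le_of_map u4 fun v hv => ⟨⟨hW u4 su v hv.1.1, by
      simpa using eig_move (show x3 * u4 = u4 * x4 ^ 1 by decide +kernel) hv.2⟩,
      eig_move (show x4 * u4 = u4 * x3 ^ 2 by decide +kernel) hv.1.2⟩
  have w4 : (ω ^ 2) ^ 2 = ω := by linear_combination ω * w3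
  have b1 := mv ω ω
  have b2 := mv ω (ω ^ 2)
  have b3 := mv (ω ^ 2) (ω ^ 2)
  have b4 := mv (ω ^ 2) ω
  rw [w4] at b3 b4
  have a2 := a1 ω
  have a3 := a1 (ω ^ 2)
  omega

end H17.AS77
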