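/- ALTSEC2 tower, slot RED: the reduction for general degree. -/
import Cfsg.Agent.H40.ASSpec2
import Cfsg.Agent.H71.ASRed

set_option autoImplicit false

namespace H17.ASRG
open Equiv Module Subgroup Cfsg H40.AS H71.AS
open scoped commutatorElement

section Lin
variable {k V V' : Type} [Field k] [AddCommGroup V] [Module k V] [FiniteDimensional k V]
  [AddCommGroup V'] [Module k V'] [FiniteDimensional k V']

theorem eig_prod (f : End k V) (g : End k V') (μ : k) :
    finrank k (f.eigenspace μ) + finrank k (g.eigenspace μ) ≤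
      finrank k (End.eigenspace (f.prodMap g) μ) := by
  rw [← finrank_prod]
  refine LinearMap.finrank_le_finrank_of_injective
    (f := ((f.eigenspace μ).subtype.prodMap (g.eigenspace μ).subtype).codRestrict _ fun x =>
      End.mem_eigenspace_iff.2 (Prod.ext (End.mem_eigenspace_iff.1 x.1.2)
        (End.mem_eigenspace_iff.1 x.2.2))) fun a b e => ?_
  have e' := congrArg Subtype.val e
  exact Prod.ext (Subtype.ext (congrArg Prod.fst e')) (Subtype.ext (congrArg Prod.snd e'))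

theorem finrank_le_two {f : End k V} (hf : ∀ v, f (f v) = v) (h2 : (2 : k) ≠ 0) :
    finrank k V ≤ finrank k (f.eigenspace 1) + finrank k (f.eigenspace (-1)) := by
  have ht : (⊤ : Submodule k V) ≤ f.eigenspace 1 ⊔ f.eigenspace (-1) := by
    intro v _
    have a : v + f v ∈ f.eigenspace 1 := End.mem_eigenspace_iff.2 (by
      rw [map_add, hf, one_smul, add_comm])
    have b : v - f v ∈ f.eigenspace (-1) := End.mem_eigenspace_iff.2 (by
      rw [map_sub, hf, neg_one_smul, neg_sub])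
    refine (Submodule.smul_mem_iff _ h2).1 ?_
    convert Submodule.add_mem_sup a b using 1
    module
  have a := Submodule.finrank_mono ht
  have c := Submodule.finrank_add_le_finrank_add_finrank (f.eigenspace 1) (f.eigenspace (-1))
  rw [finrank_top] at a
  omega

end Lin

variable {H : Type} [Group H] [Finite H] {r : ℕ} {π : H →* Perm (Fin r)} {p : ℕ} [Fact p.Prime]

/-- The graded module of a module under a normal `p`-subgroup. -/
theorem gr {k : Type} [Field k] [CharP k p] {Q : Subgroup H} [Q.Normal] (hP : IsPGroup p Q)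
    (n : ℕ) : ∀ (V : Type) [AddCommGroup V] [Module k V] [FiniteDimensional k V]
      (σ : Representation k H V), finrank k V = n →
      ∃ (V' : Type) (_ : AddCommGroup V') (_ : Module k V') (_ : FiniteDimensional k V')
        (σ' : Representation k H V'), finrank k V' = n ∧ (∀ y ∈ Q, σ' y = 1) ∧
        ∀ s μ, finrank k (End.eigenspace (σ s) μ) ≤ finrank k (End.eigenspace (σ' s) μ) := by
  induction n using Nat.strong_induction_on with
  | _ n ih =>
  intro V _ _ _ σ hn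
  rcases subsingleton_or_nontrivial V with hV | hV
  · exact ⟨V, _, _, inferInstance, σ, hn, fun _ _ => Subsingleton.elim _ _, fun _ _ => le_rfl⟩
  obtain ⟨v, -, h0, hv⟩ := H90.exists_fixed_of_isPGroup hP (σ.comp Q.subtype) ⊤ top_ne_bot
    fun _ _ _ => trivial
  have hU := fix_inv σ Q
  have d1 := (H22.fixSp σ Q).finrank_quotient_add_finrank
  have d2 : 1 ≤ finrank k (H22.fixSp σ Q) := Submodule.one_le_finrank_iff.2
    ((Submodule.ne_bot_iff _).2 ⟨v, fun y hy => hv ⟨y, hy⟩, h0⟩)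
  obtain ⟨V', _, _, _, σ', e1, e2, e3⟩ := ih _ (by omega) _ (σ.quotient _ hU) rfl
  refine ⟨H22.fixSp σ Q × V', _, _, inferInstance, (σ.subrepresentation _ hU).prod σ',
    by rw [finrank_prod]; omega, fun y hy => ?_, fun s μ => ?_⟩
  · refine LinearMap.ext fun w => Prod.ext (Subtype.ext (w.1.2 y hy)) ?_
    change σ' y w.2 = w.2
    rw [e2 y hy, End.one_apply]
  · have a1 := eig_le_add (σ s) _ (hU s) μ
    have a2 := eig_prod ((σ s).restrict (hU s)) (σ' s) μ
    have a3 := e3 s μ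
    change finrank k (End.eigenspace (Submodule.mapQ _ _ (σ s) (hU s)) μ) ≤ _ at a3
    change _ ≤ finrank k (End.eigenspace (((σ s).restrict (hU s)).prodMap (σ' s)) μ)
    omega

omit [Finite H] in
theorem exists_three (h : Mn π) : ∃ s, (π s).IsThreeCycle := by
  obtain ⟨σ, h3⟩ : ∃ σ : Perm (Fin r), σ.IsThreeCycle := by
    have := h.five
    refine ⟨swap ⟨0, by omega⟩ ⟨1, by omega⟩ * swap ⟨0, by omega⟩ ⟨2, by omega⟩,
      Perm.isThreeCycle_swap_mul_swap_same ?_ ?_ ?_⟩ <;> simp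
  obtain ⟨s, hs⟩ := h.surj ⟨_, h3.mem_alternatingGroup⟩
  have e : π s = σ := congrArg Subtype.val hs
  exact ⟨s, e ▸ h3⟩

omit [Finite H] in
theorem exists_dt (h : Mn π) : ∃ s, DT (π s) := by
  obtain ⟨σ, h3⟩ : ∃ σ : Perm (Fin r), DT σ := by
    have := h.five
    refine ⟨_, ⟨0, by omega⟩, ⟨1, by omega⟩, ⟨2, by omega⟩, ⟨3, by omega⟩, ?_, rfl⟩
    simp
  obtain ⟨s, hs⟩ := h.surj ⟨_, Perm.mem_alternatingGroup.2 h3.sign⟩
  have e : π s = σ := congrArg Subtype.val hs
  exact ⟨s, e ▸ h3⟩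

theorem dt_sq {α : Type} [Fintype α] [DecidableEq α] {σ : Perm α} (h : DT σ) :
    σ ^ 2 = 1 ∧ σ ≠ 1 := by
  obtain ⟨a, b, c, d, ⟨h1, h2, h3, h4, h5, h6⟩, rfl⟩ := h
  constructor
  · have hc : Commute (swap a b) (swap c d) := by
      refine (Perm.disjoint_swap_swap ?_).commute
      simp [h1, h2, h3, h4, h5, h6]
    rw [hc.mul_pow, pow_two, pow_two, swap_mul_self, swap_mul_self, one_mul]
  · intro e
    have := congrArg (fun σ : Perm α => σ c) e
    simp only [Perm.mul_apply, swap_apply_left, Perm.one_apply] at this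
    rw [swap_apply_of_ne_of_ne h3.symm h5.symm] at this
    exact h6 this.symm

omit [Finite H] in
theorem exists_lift (hP : IsPGroup p π.ker) {n : ℕ} (hn : n.Prime) (hp : p ≠ n) (t : H)
    (ht : π t ^ n = 1) : ∃ s, π s = π t ∧ s ^ n = 1 := by
  obtain ⟨a, ha⟩ := hP ⟨t ^ n, by rw [MonoidHom.mem_ker, map_pow, ht]⟩
  have ha' : (t ^ n) ^ p ^ a = 1 := congrArg Subtype.val ha
  obtain ⟨m, h1, h2⟩ := Nat.chineseRemainder
    (Nat.Coprime.pow_right a ((Nat.coprime_primes hn Fact.out).2 hp.symm)) 1 0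
  refine ⟨t ^ m, ?_, ?_⟩
  · rw [map_pow, pow_eq_pow_of_modEq h1 ht, pow_one]
  · rw [← pow_mul, mul_comm, pow_mul, pow_eq_pow_of_modEq h2 ha', pow_zero]

theorem cast_ne {n : ℕ} (hn : n.Prime) (hp : p ≠ n) : ((n : ℕ) : Kb p) ≠ 0 := fun e =>
  hp ((Nat.prime_dvd_prime_iff_eq Fact.out hn).1 ((CharP.cast_eq_zero_iff (Kb p) p n).1 e))

variable {V : Type} [AddCommGroup V] [Module (Kb p) V] [FiniteDimensional (Kb p) V]
  {ρ : Representation (Kb p) H V} {N b : ℕ}

theorem caseP (h : Mn π)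
    (hM : (p ≠ 3 ∧ ∃ c, M3At p r N c ∧ 2 * c < b) ∨ (p ≠ 2 ∧ ∃ c, M2At p r N c ∧ c < b))
    (hP : IsPGroup p π.ker) (hd : finrank (Kb p) V = N)
    (hF : ∀ s : H, s ≠ 1 → ∀ e : ℕ, (e : Kb p) ≠ 0 → s ^ e = 1 →
      finrank (Kb p) (End.eigenspace (ρ s) 1) + b ≤ N) : False := by
  obtain ⟨V', _, _, _, σ', e1, e2, e3⟩ := gr hP N V ρ hd
  obtain ⟨ρ', e⟩ := h.descend σ' e2
  rcases hM with ⟨hp, c, hM, hc⟩ | ⟨hp, c, hM, hc⟩
  · obtain ⟨t, ht⟩ := exists_three h
    obtain ⟨s, hs, h1⟩ := exists_lift hP Nat.prime_three hp t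
      (by rw [← ht.orderOf, pow_orderOf_eq_one])
    rw [← hs] at ht
    have h3 := cast_ne Nat.prime_three hp
    obtain ⟨ω, hω⟩ := exists_omega (k := Kb p)
    have b1 := hM V' ρ' e1.le (h.φ s) ht ω hω
    have b2 := hM V' ρ' e1.le (h.φ s) ht (ω ^ 2) (by linear_combination (ω ^ 2 - ω + 1) * hω)
    rw [e] at b1 b2
    have b3 := hF s (by rintro rfl; exact ht.ne_one (map_one π)) 3 h3 h1
    have b4 := finrank_le_three (f := ρ s) (fun v => by
      rw [← End.mul_apply, ← End.mul_apply, ← map_mul, ← map_mul, ← pow_three', h1, map_one,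
        End.one_apply]) (by exact_mod_cast h3) hω
    have b5 := e3 s ω
    have b6 := e3 s (ω ^ 2)
    omega
  · obtain ⟨t, ht⟩ := exists_dt h
    obtain ⟨s, hs, h1⟩ := exists_lift hP Nat.prime_two hp t (dt_sq ht).1
    rw [← hs] at ht
    have h2 := cast_ne Nat.prime_two hp
    have b1 := hM V' ρ' e1.le (h.φ s) ht
    rw [e] at b1
    have b3 := hF s (by rintro rfl; exact (dt_sq ht).2 (map_one π)) 2 h2 h1
    have b4 := finrank_le_two (f := ρ s) (fun v => by
      rw [← End.mul_apply, ← map_mul, ← pow_two, h1, map_one, End.one_apply])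
      (by exact_mod_cast h2)
    have b5 := e3 s (-1)
    omega

theorem caseZ (h : Mn π) (h9 : 9 ≤ r) (hS : p ≠ 2 → SPAt p r N)
    (hZ : ∀ K : Subgroup H, K.Normal → K ≤ π.ker → ¬ p ∣ Nat.card K → K ≤ center H)
    (hd : finrank (Kb p) V = N) (hf : ∀ g, ρ g = 1 → g = 1) : IsPGroup p π.ker := by
  by_contra hP
  let P : Sylow p π.ker := default
  let Q := (P : Subgroup π.ker).map π.ker.subtype
  have : Q.Normal := h.sylow P
  have hQ : IsPGroup p Q := P.isPGroup'.map _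
  have hc : ∀ (l : ℕ) [Fact l.Prime], l ≠ p → ∀ S : Sylow l π.ker,
      (S : Subgroup π.ker).map π.ker.subtype ≤ center H := fun l _ hl S =>
    hZ _ (h.sylow S) (map_subtype_le _) fun e => by
      obtain ⟨n, hn⟩ := (IsPGroup.iff_card.1 (S.isPGroup'.map π.ker.subtype))
      rw [hn] at e
      exact hl ((Nat.prime_dvd_prime_iff_eq Fact.out Fact.out).1
        ((Fact.out : p.Prime).dvd_of_dvd_pow e)).symm
  obtain ⟨l, _, hl, S, hS0⟩ : ∃ (l : ℕ) (_ : Fact l.Prime), l ≠ p ∧ ∃ S : Sylow l π.ker,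
      (S : Subgroup π.ker) ≠ ⊥ := by
    by_contra! e
    have : (P : Subgroup π.ker) = ⊤ := top_of_sylow fun l _ => by
      by_cases hl : l = p
      · subst hl; exact ⟨P, le_rfl⟩
      · exact ⟨default, by rw [e l inferInstance hl]; exact bot_le⟩
    exact hP ((this ▸ P.isPGroup').of_equiv topEquiv)
  obtain ⟨⟨z, hzS⟩, hz1⟩ := ne_bot_iff_exists_ne_one.1 hS0
  have hdis := IsPGroup.disjoint_of_ne p l hl.symm _ _ P.isPGroup' S.isPGroup'
  have hzQ : ∀ y ∈ (S : Subgroup π.ker), (y : H) ∈ Q → y = 1 := by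
    rintro y hy ⟨y', hy', e⟩
    obtain rfl : y' = y := Subtype.ext e
    exact disjoint_def.1 hdis hy' hy
  have hQk : Q ≤ π.ker := map_subtype_le _
  have hk : (QuotientGroup.lift Q π hQk).ker ≤ center (H ⧸ Q) := by
    have e : ((center (H ⧸ Q)).comap (QuotientGroup.mk' Q)).subgroupOf π.ker = ⊤ :=
      top_of_sylow fun l _ => by
        by_cases hl : l = p
        · subst hl
          exact ⟨P, fun y hy => by
            have : (y : H ⧸ Q) = 1 := (QuotientGroup.eq_one_iff _).2 ⟨y, hy, rfl⟩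
            exact mem_subgroupOf.2 (mem_comap.2 (this ▸ one_mem _ : ((y : H) : H ⧸ Q) ∈ _))⟩
        · refine ⟨default, fun y hy => mem_subgroupOf.2 (mem_comap.2 (mem_center_iff.2 fun g => ?_))⟩
          obtain ⟨g, rfl⟩ := QuotientGroup.mk'_surjective Q g
          rw [← map_mul, ← map_mul]
          exact congrArg _ (mem_center_iff.1 (hc l hl default ⟨y, hy, rfl⟩) g)
    intro y hy
    obtain ⟨y, rfl⟩ := QuotientGroup.mk_surjective y
    exact mem_subgroupOf.1 (e ▸ mem_top _ : (⟨y, hy⟩ : π.ker) ∈ _)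
  have D := (h.quot Q hQk).dc (by omega) hk (z := ((z : H) : H ⧸ Q)) z.2 fun e =>
    hz1 (Subtype.ext (hzQ z hzS ((QuotientGroup.eq_one_iff _).1 e)))
  have zz' : z * z = 1 := hzQ (z * z) (mul_mem hzS hzS) ((QuotientGroup.eq_one_iff _).1 D.zz)
  have zz : (z : H) * z = 1 := congrArg Subtype.val zz'
  have hp2 : p ≠ 2 := by
    rintro rfl
    obtain ⟨a, ha⟩ := S.isPGroup' ⟨z, hzS⟩
    have a1 : orderOf z ∣ l ^ a := orderOf_dvd_of_pow_eq_one (congrArg Subtype.val ha)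
    have a2 : orderOf z ∣ 2 := orderOf_dvd_of_pow_eq_one (by rw [pow_two, zz'])
    have a3 := Nat.eq_one_of_dvd_coprimes
      (Nat.Coprime.pow_left a ((Nat.coprime_primes Fact.out Nat.prime_two).2 hl)) a1 a2
    exact hz1 (Subtype.ext (orderOf_eq_one_iff.1 a3))
  have hzc := mem_center_iff.1 (hc l hl S ⟨z, hzS, rfl⟩)
  have hW : ∀ g, End.eigenspace (ρ z) (-1) ≤ (End.eigenspace (ρ z) (-1)).comap (ρ g) :=
    fun g v hv => End.mem_eigenspace_iff.2 (by
      rw [← End.mul_apply, ← map_mul]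
      exact (congrArg (fun x => ρ x v) (hzc g)).symm.trans (by
        simp only [map_mul, End.mul_apply]
        exact (congrArg (ρ g) (End.mem_eigenspace_iff.1 hv)).trans (map_smul _ _ _)))
  obtain ⟨w, hw⟩ : ∃ w, ρ z w - w ≠ 0 := by
    by_contra! e
    exact hz1 (Subtype.ext (Subtype.ext (hf z (LinearMap.ext fun w => sub_eq_zero.1 (e w)))))
  obtain ⟨v, hv, h0, hv'⟩ := H90.exists_fixed_of_isPGroup hQ (ρ.comp Q.subtype)
    (End.eigenspace (ρ z) (-1)) ((Submodule.ne_bot_iff _).2 ⟨_, End.mem_eigenspace_iff.2 (by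
      rw [map_sub, ← End.mul_apply, ← map_mul, zz, map_one]; simp), hw⟩) fun g => hW g
  have hU : ∀ g, End.eigenspace (ρ z) (-1) ⊓ H22.fixSp ρ Q ≤
      (End.eigenspace (ρ z) (-1) ⊓ H22.fixSp ρ Q).comap (ρ g) :=
    fun g v hv => ⟨hW g hv.1, fix_inv ρ Q g hv.2⟩
  have : Nontrivial ↥(End.eigenspace (ρ z) (-1) ⊓ H22.fixSp ρ Q) :=
    Submodule.nontrivial_iff_ne_bot.2 ((Submodule.ne_bot_iff _).2 ⟨v, ⟨hv, fun y hy => hv' ⟨y, hy⟩⟩, h0⟩)
  have a := hS hp2 _ _ _ D _ (QuotientGroup.lift Q (ρ.subrepresentation _ hU)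
    fun y hy => LinearMap.ext fun w => Subtype.ext (w.2.2 y hy))
    (LinearMap.ext fun w => Subtype.ext ((End.mem_eigenspace_iff.1 w.2.1).trans
      (neg_one_smul (Kb p) _)))
  have := (End.eigenspace (ρ z) (-1) ⊓ H22.fixSp ρ Q).finrank_le
  omega

theorem caseR {R : Subgroup H} {l : ℕ} (hR : MR π R l) (h9 : 9 ≤ r) (hN : N ^ 2 < 2 ^ (r - 2))
    {c : ℕ} (hM : @M3At 5 fact5 r N c) (hc : 3 * c < b)
    (hp : ¬ p ∣ Nat.card R) (hd : finrank (Kb p) V = N) (hf : ∀ g, ρ g = 1 → g = 1)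
    (hF : ∀ s : H, s ≠ 1 → ∀ e : ℕ, (e : Kb p) ≠ 0 → s ^ e = 1 →
      finrank (Kb p) (End.eigenspace (ρ s) 1) + b ≤ N) : False := by
  classical
  have h := hR.mn
  have := hR.nm
  have hinj : Function.Injective ρ := (injective_iff_map_eq_one ρ).2 hf
  have he : (Nat.card R : Kb p) ≠ 0 := fun e => hp ((CharP.cast_eq_zero_iff (Kb p) p _).1 e)
  have hpw : ∀ x ∈ R, x ^ Nat.card R = 1 := fun x hx =>
    congrArg Subtype.val (pow_card_eq_one' (x := (⟨x, hx⟩ : R)))
  have hb := hR.card_bar (d := r - 2) fun l _ U _ _ _ σ a _ =>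
    (H71.AS.bd_ge l r).trans (sec_all h9 H π h.range l _ U σ a)
  have hcm : ∀ x ∈ R, ∀ y ∈ π.ker, Commute y x := fun x hx y hy => hinj (by
    rw [map_mul, map_mul]
    refine H22.ext_of_wt (fun z : ↥(R ⊓ center H) => ρ z) (fun s t => ?_)
      (fun s => ⟨_, he, by rw [← map_pow, hpw _ s.2.1, map_one]⟩) _ _ fun χ v hv => ?_
    · rw [Commute, SemiconjBy, ← map_mul, ← map_mul, mem_center_iff.1 t.2.2]
    by_cases h0 : v = 0
    · simp [h0]
    have hU : ∀ g, W ρ (R ⊓ center H) χ ≤ (W ρ (R ⊓ center H) χ).comap (ρ g) := fun g v hv z => by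
      rw [← map_smul, ← hv z, ← End.mul_apply, ← End.mul_apply, ← map_mul, ← map_mul,
        mem_center_iff.1 z.2.2]
    have : Nontrivial (W ρ (R ⊓ center H) χ) :=
      Submodule.nontrivial_iff_ne_bot.2 ((Submodule.ne_bot_iff _).2 ⟨v, hv, h0⟩)
    have hle : finrank (Kb p) (W ρ (R ⊓ center H) χ) ≤ N := hd ▸ Submodule.finrank_le _
    have := hR.comm_of_small (ρ.subrepresentation _ hU)
      (fun z a b => ⟨χ ⟨z, a, b⟩, LinearMap.ext fun w => Subtype.ext (w.2 ⟨z, a, b⟩)⟩)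
      ((Nat.pow_le_pow_left hle 2).trans_lt (lt_of_lt_of_le hN hb)) x hx y hy
    exact congrArg Subtype.val (LinearMap.congr_fun this.eq ⟨v, hv⟩))
  have htop := H22.iSup_wt_eq_top (fun x : R => ρ x)
    (fun s t => by rw [Commute, SemiconjBy, ← map_mul, ← map_mul, (hcm t t.2 s (hR.le s.2)).eq])
    (fun s => ⟨_, he, by rw [← map_pow, hpw _ s.2, map_one]⟩)
  have hsum : ∑ χ : WL ρ R, finrank (Kb p) (W ρ R χ.1) = N := by
    have e : ⨆ χ ∈ (Finset.univ : Finset (WL ρ R)), W ρ R χ.1 = ⊤ := by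
      rw [eq_top_iff, ← htop]
      refine iSup_le fun χ => ?_
      by_cases h0 : W ρ R χ = ⊥
      · exact h0.le.trans bot_le
      · exact le_iSup₂_of_le (⟨χ, h0⟩ : WL ρ R) (Finset.mem_univ _) le_rfl
    rw [← finrank_biSup indep, e, finrank_top, hd]
  obtain ⟨s, hs⟩ := exists_three h
  obtain ⟨u, hu, hus⟩ : ∃ u ∈ R, u * s ≠ s * u := by
    by_contra! e
    rcases h.dich (centralizer (R : Set H)) with e1 | e1
    · exact hs.ne_one (e1 e)
    · exact hR.nc fun x hx => mem_center_iff.2 fun g =>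
        ((e1 ▸ mem_top g : g ∈ centralizer (R : Set H)) x hx).symm
  have ht : u⁻¹ * (s⁻¹ * u * s) ∈ R := R.mul_mem (R.inv_mem hu) (hR.nm.conj_mem' u hu s)
  have b1 := hF _ (fun e => hus (by
    rw [inv_mul_eq_one] at e
    nth_rw 2 [e]
    group)) _ he (hpw _ ht)
  have b2 : ∑ χ ∈ Finset.univ.filter (fun χ : WL ρ R => s⁻¹ • χ = χ),
      finrank (Kb p) (W ρ R χ.1) + b ≤ N := by
    rw [← finrank_biSup indep]
    refine (Nat.add_le_add_right (Submodule.finrank_mono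
      (iSup₂_le fun χ hχ v hv => End.mem_eigenspace_iff.2 ?_)) b).trans b1
    have e1 : s • χ = χ := (inv_smul_eq_iff.1 (Finset.mem_filter.1 hχ).2).symm
    have e2 := congrFun (congrArg Subtype.val e1) ⟨u, hu⟩
    have e3 := hv (MulAut.conjNormal s⁻¹ ⟨u, hu⟩)
    rw [smul_val] at e2
    rw [e2, ← hv ⟨u, hu⟩] at e3
    simp only [MulAut.conjNormal_apply, inv_inv] at e3
    rw [map_mul, End.mul_apply, e3, ← End.mul_apply, ← map_mul, inv_mul_cancel, map_one, one_smul,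
      End.one_apply]
  let _ : MulAction H (Σ χ : WL ρ R, Fin (finrank (Kb p) (W ρ R χ.1))) :=
    { smul := fun g q => ⟨g • q.1, Fin.cast (finrank_smul g q.1).symm q.2⟩
      one_smul := fun q => Sigma.ext (one_smul H q.1)
        ((Fin.heq_ext_iff (finrank_smul 1 q.1)).2 rfl)
      mul_smul := fun g g' q => Sigma.ext (mul_smul g g' q.1)
        ((Fin.heq_ext_iff ((finrank_smul _ q.1).trans
          ((finrank_smul g _).trans (finrank_smul g' q.1)).symm)).2 rfl) }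
  have hk : ∀ y ∈ π.ker, ∀ q : Σ χ : WL ρ R, Fin (finrank (Kb p) (W ρ R χ.1)), y • q = q :=
    fun y hy q => Sigma.ext (smul_of_comm (fun x hx => hcm x hx y hy) q.1)
      ((Fin.heq_ext_iff (finrank_smul y q.1)).2 rfl)
  have := fact5
  obtain ⟨ω, hω⟩ := exists_omega (k := Kb 5)
  have hX : finrank (Kb 5) ((Σ χ : WL ρ R, Fin (finrank (Kb p) (W ρ R χ.1))) → Kb 5) = N := by
    rw [finrank_fintype_fun_eq_card, Fintype.card_sigma, ← hsum]
    simp
  obtain ⟨ρ', e⟩ := h.descend (permRep (Kb 5) H (Σ χ : WL ρ R, Fin (finrank (Kb p) (W ρ R χ.1))))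
    fun y hy => permRep_eq_one (hk y hy)
  have b3 := hM _ ρ' hX.le (h.φ s) hs ω hω
  rw [e] at b3
  have b4 := moved_le (fun q : Σ χ : WL ρ R, Fin (finrank (Kb p) (W ρ R χ.1)) => s⁻¹ • q)
    (fun q => by
      rw [← mul_smul, ← mul_smul, ← pow_three']
      exact hk _ (by rw [MonoidHom.mem_ker, map_pow, map_inv, inv_pow, ← hs.orderOf,
        pow_orderOf_eq_one, inv_one]) q)
    (permRep (Kb 5) H _ s) (fun _ _ => rfl) (ω := ω) (by linear_combination (ω - 1) * hω)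
  have b5 : ∑ χ ∈ Finset.univ.filter (fun χ : WL ρ R => ¬ s⁻¹ • χ = χ),
      finrank (Kb p) (W ρ R χ.1) ≤ (Finset.univ.filter
        fun q : Σ χ : WL ρ R, Fin (finrank (Kb p) (W ρ R χ.1)) => s⁻¹ • q ≠ q).card := by
    refine le_trans (le_of_eq ?_) (Finset.card_le_card (s := (Finset.univ.filter
      fun χ : WL ρ R => ¬ s⁻¹ • χ = χ).sigma fun _ => Finset.univ) fun q hq => ?_)
    · simp
    · exact Finset.mem_filter.2 ⟨Finset.mem_univ _, fun e =>
        (Finset.mem_filter.1 (Finset.mem_sigma.1 hq).1).2 (congrArg Sigma.fst e)⟩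
  have b6 := Finset.sum_filter_add_sum_filter_not Finset.univ (fun χ : WL ρ R => s⁻¹ • χ = χ)
    fun χ => finrank (Kb p) (W ρ R χ.1)
  omega

theorem jobRedG : H40.AS.JobRedG := by
  rintro p _ r N b h9 hN hS ⟨c, hM5, hc5⟩ hM H _ _ π hπ V _ _ _ ρ hd hf hF
  obtain ⟨L, h⟩ := exists_mn (by omega) hπ
  have hf' : ∀ g, (ρ.comp L.subtype) g = 1 → g = 1 := fun g hg => Subtype.ext (hf g hg)
  have hF' : ∀ s : L, s ≠ 1 → ∀ e : ℕ, (e : Kb p) ≠ 0 → s ^ e = 1 →
      finrank (Kb p) (End.eigenspace ((ρ.comp L.subtype) s) 1) + b ≤ N := fun s h1 e he hs =>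
    hF s (fun e => h1 (Subtype.ext e)) e he (congrArg Subtype.val hs)
  refine caseP h hM (caseZ (p := p) h h9 hS (fun K hK hle hp => ?_) hd hf') hd hF'
  by_contra hc
  obtain ⟨R, hR, l, hl⟩ := exists_mr h hK hle hc
  exact caseR (p := p) hl h9 hN hM5 hc5 (fun e => hp (e.trans (card_dvd_of_le hR))) hd hf' hF'

end H17.ASRG
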