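import Cfsg.Agent.H33.L4Kit
import Cfsg.Agent.H53.C6Pre

set_option autoImplicit false
set_option linter.unusedSectionVars false

/-! The monomial group is maximal in `SL₅(q)`, `q ≥ 5`. -/

namespace H17.M5

open Module H62 H33.L4

variable {F V : Type*} [Field F] [AddCommGroup V] [Module F V] {ι : Type*} {b : Basis ι F V}
  {M : Subgroup (V ≃ₗ[F] V)} [FiniteDimensional F V] {o i j k l m : ι} {g y : V ≃ₗ[F] V} {a : F}

theorem scal_mem {s : F} (hs : s ≠ 0) : LinearEquiv.smulOfNeZero F V s hs ∈ stabG (lines b) :=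
  StabD.of_fix fun _ _ hv => Submodule.smul_mem _ _ hv

variable [Fintype ι] (h5 : Fintype.card ι = 5)
  (hM : ∀ e, StabD (lines b) e → LinearMap.det (e : V →ₗ[F] V) = 1 → e ∈ M)
  (hB : ∀ o, ∀ g ∈ M ⊓ fixL (b o), g ∈ stabG (lines b))
  (ha : a ≠ 0) (h1 : a ≠ 1) (h2 : a ^ 2 ≠ 1) (h3 : a ^ 3 ≠ 1)
include h5 hM hB

theorem a0 (hg : g ∈ M) (h : ∀ l, l ≠ k → b.repr (g (b i)) l = 0) : g ∈ stabG (lines b) := by
  have p1 := eq_smul_of_repr h
  have p2 : b.repr (g (b i)) k ≠ 0 := fun e => b.ne_zero i (by simpa [e] using p1)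
  by_cases hk : k = i
  · exact hB i g ⟨hg, _, p2, hk ▸ p1⟩
  obtain ⟨o, ho⟩ := exists_list [k, i] (by simp; omega)
  simp only [List.mem_cons, List.not_mem_nil, or_false, not_or] at ho
  obtain ⟨r, hr, hr', r1⟩ := mono_swap hM hk (Ne.symm ho.1) (Ne.symm ho.2)
  exact (mul_mem_cancel_left hr').1 (hB i (r * g) ⟨M.mul_mem hr hg, _, p2, by
    rw [LinearEquiv.mul_apply, p1, map_smul, r1]; simp [Ne.symm hk, ho.1]⟩)

include ha h1 h2 h3

theorem c1 (hg : g ∈ M) (hn : g ∉ stabG (lines b)) (hlm : l ≠ m)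
    (hl : b.repr (g (b i)) l = 0) : b.repr (g (b i)) m ≠ 0 := fun hm => by
  obtain ⟨j, hj⟩ := exists_row (b := b) g l
  have p1 := mono_C1a hM hB ha h1 h2 h3 hg hlm hl hm hj
  obtain ⟨r, hr⟩ := exists_list [l, m] (by simp; omega)
  obtain ⟨s, hs⟩ := exists_list [l, m, r] (by simp; omega)
  obtain ⟨t, ht⟩ := exists_list [l, m, r, s] (by simp; omega)
  simp only [List.mem_cons, List.not_mem_nil, or_false, not_or] at hr hs ht
  obtain ⟨k, hk⟩ := exists_row (b := b) g r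
  refine hn (a0 h5 hM hB hg (i := k) (k := r) fun x hx => ?_)
  by_cases e : x = s
  · exact mono_C1a hM hB ha h1 h2 h3 hg (Ne.symm ht.2.2.1) (p1 r hr.1 hr.2) (p1 t ht.1 ht.2.1) hk x hx
      (e ▸ Ne.symm ht.2.2.2)
  · exact mono_C1a hM hB ha h1 h2 h3 hg (Ne.symm hs.2.2) (p1 r hr.1 hr.2) (p1 s hs.1 hs.2.1) hk x hx e

/-- a non-monomial element has no zero entry -/
theorem nz {c : F} (hc : c ≠ 0) (hc5 : c ^ 5 ≠ 1) (hg : g ∈ M) (hn : g ∉ stabG (lines b)) (i k : ι) :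
    b.repr (g (b i)) k ≠ 0 := fun hz => by
  obtain ⟨d, hd⟩ := exists_dil (φ := ((c ^ 5)⁻¹ - 1) • b.coord k) (u := b k) (by simp [hc])
  let s : V ≃ₗ[F] V := LinearEquiv.smulOfNeZero F V c hc
  have hy : s * d ∈ M := by
    refine hM _ ((stabG (lines b)).mul_mem (scal_mem hc) (StabD.of_fix fun i v hv => by
        rw [hd]; exact (lines_loc b k).fix (self_mem_lines b k) _ i v hv)) ?_
    rw [LinearEquiv.coe_toLinearMap_mul, map_mul, det_of_tv hd,
      show (s : V →ₗ[F] V) = c • LinearMap.id from rfl, LinearMap.det_smul, finrank_eq_card_basis b, h5]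
    simp [hc]
  have h6 : (c ^ 5)⁻¹ - 1 ≠ 0 := by simpa [sub_eq_zero]
  have e : ∀ v, (s * d) v = c • (v + (((c ^ 5)⁻¹ - 1) * b.repr v k) • b k) := fun v => by
    simp [s, hd]
  generalize s * d = y at hy e
  generalize (c ^ 5)⁻¹ - 1 = t at h6 e
  have e' : ∀ v, (g⁻¹ * y * g) v = c • (v + (t * b.repr (g v) k) • g⁻¹ (b k)) := fun v => by
    simp [e]
  have h7 : g⁻¹ * y * g ∈ stabG (lines b) :=
    hB i _ ⟨M.mul_mem (M.mul_mem (M.inv_mem hg) hy) hg, c, hc, by simp [e', hz]⟩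
  obtain ⟨j, hj⟩ := exists_row (b := b) g k
  obtain ⟨r, hr⟩ := col_of_mem h7 j
  have key : ∀ x, x ≠ j → x ≠ r → b.repr (g⁻¹ (b k)) x = 0 := fun x p1 p2 => by
    have := hr x p2
    rw [e'] at this
    simpa [p1, hc, h6, hj] using this
  obtain ⟨m, n, p1, p2, p3, p4, p5⟩ := exists_two (ι := ι) (by omega) j r
  exact c1 h5 hM hB ha h1 h2 h3 (M.inv_mem hg) (by simpa using hn) p1 (key m p2 p3) (key n p4 p5)

omit ha h1 h2 h3 in
theorem five (hg : g ∈ M) (o : ι) (z : ∀ k, b.repr (g (b o)) k ≠ 0) (k : ι) :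
    5 * (b.repr (g (b o)) k * b.repr (g⁻¹ (b k)) o) = 1 := by
  have key : ∀ l, b.repr (g (b o)) l * b.repr (g⁻¹ (b l)) o =
      b.repr (g (b o)) k * b.repr (g⁻¹ (b k)) o := fun l => by
    by_cases hkl : k = l
    · rw [hkl]
    obtain ⟨r, r1, r2, r3⟩ := mono_r (b := b) hkl (z k) (z l)
    have hm : (-1 : F) ≠ 0 := by simp
    let s : V ≃ₗ[F] V := LinearEquiv.smulOfNeZero F V (-1) hm
    have hy : s * r ∈ M := by
      refine hM _ ((stabG (lines b)).mul_mem (scal_mem hm) r1) ?_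
      rw [LinearEquiv.coe_toLinearMap_mul, map_mul, r2,
        show (s : V →ₗ[F] V) = (-1 : F) • LinearMap.id from rfl, LinearMap.det_smul,
        finrank_eq_card_basis b, h5]
      norm_num
    have h7 : g⁻¹ * (s * r) * g ∈ stabG (lines b) :=
      hB o _ ⟨M.mul_mem (M.mul_mem (M.inv_mem hg) hy) hg, -1, hm, by simp [s, r3, z]⟩
    have h8 : g⁻¹ * r * g ∈ stabG (lines b) := by
      convert (stabG (lines b)).mul_mem (scal_mem hm) h7 using 1
      ext v
      simp [s]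
    have := row_fix h8 (o := o) (by simp [r3, z]) (g⁻¹ (b k))
    simp only [LinearEquiv.mul_apply, LinearEquiv.coe_inv, LinearEquiv.apply_symm_apply, r3]
      at this
    simp [Ne.symm hkl, z] at this
    have z1 := z k
    simp only [LinearEquiv.coe_inv]
    grind
  have := sum_col (b := b) g o
  simp only [key, Finset.sum_const, Finset.card_univ, h5, nsmul_eq_mul] at this
  exact_mod_cast this

theorem mono5 {c : F} (hc : c ≠ 0) (hc5 : c ^ 5 ≠ 1) (hg : g ∈ M) : g ∈ stabG (lines b) := by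
  by_contra hn
  have hz : ∀ g ∈ M, g ∉ stabG (lines b) → ∀ j k,
      5 * (b.repr (g (b j)) k * b.repr (g⁻¹ (b k)) j) = 1 := fun g hg hn j k =>
    five h5 hM hB hg j (nz h5 hM hB ha h1 h2 h3 hc hc5 hg hn j) k
  obtain ⟨j, -⟩ := exists_list (ι := ι) [] (by simp; omega)
  obtain ⟨k, l, hkl, -⟩ := exists_two (ι := ι) (by omega) j j
  obtain ⟨r, hr⟩ := exists_list [k, l] (by simp; omega)
  simp only [List.mem_cons, List.not_mem_nil, or_false, not_or] at hr
  have p := hz g hg hn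
  have key : ∀ t : F, t ≠ 0 → t ≠ 1 → 3 + (t + t⁻¹) = 0 ∨ (3 + (t + t⁻¹)) ^ 2 = 5 := fun t t0 t1 => by
    obtain ⟨d, hd, d1⟩ := mono_d hM hkl t0
    have d1 : Dg b k l t d := d1
    have p1 := p j k
    have p2 := p j l
    have e1 := d1.entry g j
    have e2 := (d1.inv hkl t0).entry g j
    by_cases hy : g⁻¹ * d * g ∈ stabG (lines b)
    · left
      rcases d1.diag hkl hy j with e | ⟨c, c1, -, c3⟩
      · rw [e] at e1
        linear_combination -5 * e1 - (t - 1) * p1 - (t⁻¹ - 1) * p2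
      · exact absurd ((c1 (nz h5 hM hB ha h1 h2 h3 hc hc5 hg hn j k)).symm.trans
          (c3 r hr.1 hr.2 (nz h5 hM hB ha h1 h2 h3 hc hc5 hg hn j r))) t1
    · right
      have := hz _ (M.mul_mem (M.mul_mem (M.inv_mem hg) hd) hg) hy j j
      rw [show (g⁻¹ * d * g)⁻¹ = g⁻¹ * d⁻¹ * g by group, e1, e2, inv_inv] at this
      generalize t⁻¹ = t' at *
      generalize b.repr (g (b j)) k * b.repr (g⁻¹ (b k)) j = P at *
      generalize b.repr (g (b j)) l * b.repr (g⁻¹ (b l)) j = Q at *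
      grind
  by_cases h : (2 : F) = 0
  · have p4 := mul_inv_cancel₀ ha
    have := key a ha h1
    generalize a⁻¹ = a' at *
    grind
  · have := key (-1) (by simp) (fun e => h (by linear_combination -e))
    rw [inv_neg_one] at this
    grind

omit h5 hM hB ha h1 h2 h3 in
open Cfsg.Geo in
theorem jobM5 : H53.C6.JobM5 := by
  intro F _ _ hq D hD
  obtain ⟨π, h⟩ := exists_isProj hD.indep hD.iSup_eq_top
  have hk := hD.finrank_eq
  choose v hv hv0 using fun i => exists_mem_notMem (W := D i) (Z := ⊥) (by simp [hk])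
  simp only [Submodule.mem_bot] at hv0
  refine isMaximalIn_of_toLE (StabD D) (fun g => LinearMap.det (g : (Fin 5 → F) →ₗ[F] (Fin 5 → F)) = 1)
    mem_specialLinear_iff (fun g => and_congr (mem_decompositionStabilizer_iff D g)
      (mem_specialLinear_iff g)) ?_ fun M hM _ g hg hns => ?_
  · have hij : (0 : Fin 5) ≠ 1 := by simp
    generalize (0 : Fin 5) = i, (1 : Fin 5) = j at hij
    obtain ⟨φ, p1, p2, -⟩ := h.exists_loc (hv j) (zero_mem _) (by simpa using hv0 j)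
    obtain ⟨e, -, he⟩ := hasTv_of_forall (H := ⊤) (p1 i hij _ (hv i)) fun _ _ => trivial
    refine ⟨e, by simp [det_of_tv he, p1 i hij _ (hv i)], fun ⟨σ, hσ⟩ => ?_⟩
    have p3 : e (v j) ∈ D (σ j) := hσ j ▸ Submodule.mem_map_of_mem (hv j)
    by_cases h3 : σ j = j
    · simpa [he, p2, h.of_mem (hv i), h.of_ne i j hij _ (hv j), hv0] using
        h.of_ne i _ (h3.symm ▸ hij) _ p3
    · simpa [he, p2, h.of_mem (hv j), h.of_ne j i hij.symm _ (hv i), hv0] using
        h.of_ne j _ (Ne.symm h3) _ p3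
  have hD' : ∀ i, F ∙ v i = D i := fun i => Submodule.eq_of_le_of_finrank_eq
    (by simpa using hv i) (by rw [finrank_span_singleton (hv0 i), hk])
  obtain ⟨b, rfl⟩ : ∃ b, lines b = D := ⟨Basis.mk (hD.indep.linearIndependent _ hv hv0) (by
    rw [Submodule.span_range_eq_iSup, ← hD.iSup_eq_top]; simp [hD']),
    funext fun i => by rw [lines, Basis.mk_apply, hD']⟩
  by_contra hc
  have hq' : (5 : F) = 0 ∨ ∃ a : F, a ≠ 0 ∧ ∀ n, 0 < n → n ≤ 5 → a ^ n ≠ 1 := by
    obtain ⟨a, ha⟩ := IsCyclic.exists_ofOrder_eq_natCard (α := Fˣ)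
    rw [Nat.card_units, Nat.card_eq_fintype_card] at ha
    by_cases h : Fintype.card F = 5
    · exact Or.inl (by simpa [h] using FiniteField.cast_card_eq_zero F)
    have h7 : Fintype.card F ≠ 6 := fun h => absurd (FiniteField.isPrimePow_card F) (by
      rw [h]; decide)
    exact Or.inr ⟨a, a.ne_zero, fun n h1 h2 e =>
      pow_ne_one_of_lt_orderOf (x := a) h1.ne' (by omega) (Units.ext (by simpa using e))⟩
  obtain ⟨c, hc0, hc5⟩ : ∃ c : F, c ≠ 0 ∧ c ^ 5 ≠ 1 := by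
    rcases hq' with hq' | ⟨a, ha, hq'⟩
    · exact ⟨2, fun e => one_ne_zero (by linear_combination hq' - 2 * e : (1 : F) = 0),
        fun e => one_ne_zero (by linear_combination e - 6 * hq' : (1 : F) = 0)⟩
    · exact ⟨a, ha, hq' 5 (by omega) le_rfl⟩
  obtain ⟨a, ha, h1, h2, h3⟩ := exists_ord hq'
  exact hns (mono5 (by simp) hM (fun o g hg => mono_B (by simp) hM hc hq' hg) ha h1 h2 h3 hc0 hc5 hg)

end H17.M5
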