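import Cfsg.Agent.H34.DdSpec
import Mathlib.Algebra.MvPolynomial.Nilpotent
import Mathlib.RingTheory.Polynomial.UniqueFactorization

/-! Job DESC of `blueprints/DADE.md`: descent of a semilinear action to the ground field. -/

set_option autoImplicit false

namespace H17.Dd

open H34.Dd

universe u

section h90

variable {A K : Type*} [CommRing A] [IsDomain A] [Field K] [Algebra A K] [IsFractionRing A K]

theorem int_div {m n : A} (hn : n ≠ 0) :
    algebraMap A K m / algebraMap A K n ∈ (algebraMap A K).range ↔ n ∣ m := by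
  have h := (map_ne_zero_iff _ (IsFractionRing.injective A K)).2 hn
  refine ⟨fun ⟨c, e⟩ => ⟨c, IsFractionRing.injective A K ?_⟩, fun ⟨c, e⟩ => ⟨c, ?_⟩⟩
  · rw [map_mul, e, mul_div_cancel₀ _ h]
  · rw [e, map_mul, mul_div_cancel_left₀ _ h]

theorem exists_gcd [UniqueFactorizationMonoid A] {H : Type*} [Finite H] [Nonempty H] (a : H → K)
    (ha : ∀ h, a h ≠ 0) : ∃ b : K, b ≠ 0 ∧ ∀ x : K, x ≠ 0 →
      (b / x ∈ (algebraMap A K).range ↔ ∀ h, a h / x ∈ (algebraMap A K).range) := by
  have := Fintype.ofFinite H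
  obtain ⟨_⟩ : Nonempty (NormalizedGCDMonoid A) := inferInstance
  obtain ⟨s, hs⟩ := IsLocalization.exist_integer_multiples_of_finite (nonZeroDivisors A) a
  choose f hf using hs
  have s0 : algebraMap A K s ≠ 0 := IsFractionRing.to_map_ne_zero_of_mem_nonZeroDivisors s.2
  have e : ∀ h, a h = algebraMap A K (f h) / algebraMap A K s := fun h => by
    rw [hf, Algebra.smul_def, mul_div_cancel_left₀ _ s0]
  refine ⟨algebraMap A K (Finset.univ.gcd f) / algebraMap A K s, div_ne_zero ?_ s0, fun x hx => ?_⟩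
  · rw [map_ne_zero_iff _ (IsFractionRing.injective A K), Ne, Finset.gcd_eq_zero_iff]
    exact fun k => ha (Classical.arbitrary H) (by rw [e, k _ (Finset.mem_univ _), map_zero, zero_div])
  obtain ⟨n, m, hm, rfl⟩ := IsFractionRing.div_surjective A x
  have n0 : (s : A) * n ≠ 0 := mul_ne_zero (nonZeroDivisors.coe_ne_zero s) (by rintro rfl; simp at hx)
  simp only [e, div_div_div_eq, ← map_mul, int_div n0]
  rw [← (Finset.gcd_mul_right' _ _ m).dvd_iff_dvd_right, Finset.dvd_gcd_iff]
  simp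

theorem h90 [UniqueFactorizationMonoid A] {H : Type*} [Group H] [Finite H] (σ : H → K ≃+* K)
    (hσ : ∀ h y, σ h y ∈ (algebraMap A K).range ↔ y ∈ (algebraMap A K).range) (a : H → K)
    (ha : ∀ h, a h ≠ 0) (hc : ∀ h l, ∃ c : Aˣ, a (h * l) = algebraMap A K c * (σ h (a l) * a h)) :
    ∃ b : K, b ≠ 0 ∧ ∀ h, ∃ c : A, IsUnit c ∧ σ h b * a h = algebraMap A K c * b := by
  obtain ⟨b, b0, hb⟩ := exists_gcd (A := A) a ha
  refine ⟨b, b0, fun h => ?_⟩
  have c0 : σ h b * a h ≠ 0 := mul_ne_zero ((map_ne_zero _).2 b0) (ha h)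
  have k : ∀ x, x ≠ 0 → (σ h b * a h / x ∈ (algebraMap A K).range ↔
      b / x ∈ (algebraMap A K).range) := fun x hx => by
    have e : ∀ y, σ h y * a h / x = σ h (y / (σ h).symm (x / a h)) := fun y => by
      rw [map_div₀, RingEquiv.apply_symm_apply, div_div_eq_mul_div]
    rw [e, hσ, hb _ ((map_ne_zero _).2 (div_ne_zero hx (ha h))), hb _ hx]
    refine (forall_congr' fun l => ?_).trans (Equiv.mulLeft h).forall_congr_right
    obtain ⟨c, e'⟩ := hc h l
    rw [← hσ h, ← e, Equiv.coe_mulLeft, e', mul_div_assoc (algebraMap A K c)]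
    refine ⟨mul_mem ⟨_, rfl⟩, fun m => ?_⟩
    have := mul_mem (⟨(c⁻¹ : Aˣ), rfl⟩ : _ ∈ (algebraMap A K).range) m
    rwa [← mul_assoc, ← map_mul, Units.inv_mul, map_one, one_mul] at this
  obtain ⟨p, hp⟩ := (k b b0).2 (by rw [div_self b0]; exact one_mem _)
  obtain ⟨q, hq⟩ := (k _ c0).1 (by rw [div_self c0]; exact one_mem _)
  refine ⟨p, .of_mul_eq_one q (IsFractionRing.injective A K ?_), by rw [hp, div_mul_cancel₀ _ b0]⟩
  rw [map_mul, hp, hq, map_one, div_mul_div_cancel₀ b0, div_self c0]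

end h90

theorem sg_int {k : Type} [Field k] {ι : Type u} (a : Equiv.Perm ι) (y : KK k ι) :
    sg k a y ∈ (algebraMap (MvPolynomial ι k) (KK k ι)).range ↔
      y ∈ (algebraMap (MvPolynomial ι k) (KK k ι)).range := by
  refine ⟨fun ⟨p, e⟩ => ⟨(MvPolynomial.renameEquiv k a).symm p, (sg k a).injective ?_⟩,
    fun ⟨p, e⟩ => ⟨MvPolynomial.renameEquiv k a p, ?_⟩⟩
  · rw [← e, sg, IsFractionRing.ringEquivOfRingEquiv_algebraMap]
    exact congrArg _ ((MvPolynomial.renameEquiv k a).apply_symm_apply p)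
  · rw [← e, sg, IsFractionRing.ringEquivOfRingEquiv_algebraMap]
    rfl

open Matrix Module in
theorem desc {k K H W : Type*} [Field k] [Field K] [Algebra k K] [Group H] [AddCommGroup W]
    [Module k W] [Module K W] [IsScalarTower k K W] [Nontrivial W] (σ : H → K ≃+* K)
    (T : H →* Module.End k W) {d : ℕ} (E : Matrix (Fin d) (Fin d) k →* Module.End K W)
    (h0 : ∀ x : H → K, (∀ h, x h ≠ 0) →
      (∀ h l, ∃ c : k, c ≠ 0 ∧ x (h * l) = algebraMap k K c * (σ h (x l) * x h)) →
      ∃ b, b ≠ 0 ∧ ∀ h, ∃ c : k, σ h b * x h = algebraMap k K c * b)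
    (h1 : ∀ h s w, T h (s • w) = σ h s • T h w) (h2 : ∀ s t, E (s + t) = E s + E t)
    (h3 : ∀ (c : k) s w, E (c • s) w = c • E s w)
    (h4 : ∀ h s, ∃ s', ∀ w, T h (E s w) = E s' (T h w))
    (h5 : ∀ v : W, v ≠ 0 → ∃ B ∈ Submodule.span K (Set.range E),
      ∃ φ : W →ₗ[K] K, φ v = 1 ∧ ∀ w, B w = φ w • v) :
    ∃ V : Submodule k W, V ≠ ⊥ ∧ FiniteDimensional k V ∧ Module.finrank k V ≤ d ∧
      ∀ h, ∀ v ∈ V, T h v ∈ V := by
  let ev : W → Matrix (Fin d) (Fin d) k →ₗ[k] W := fun w =>
    { toFun := fun s => E s w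
      map_add' := fun s t => by rw [h2]; rfl
      map_smul' := fun c s => h3 c s w }
  have ex : ∀ w : W, w ≠ 0 → ∃ i, E (single i i 1) w ≠ 0 := fun w hw => by
    by_contra! e
    refine hw ?_
    have := map_sum (ev w) (fun i => single i i 1) Finset.univ
    rw [sum_single_one] at this
    simpa [ev, e] using this
  obtain ⟨w0, hw0⟩ := exists_ne (0 : W)
  obtain ⟨o, hv⟩ := ex w0 hw0
  have mul : ∀ s t w, E s (E t w) = E (s * t) w := fun s t w => by rw [map_mul]; rfl
  have sand : ∀ s w, E (single o o 1) (E s (E (single o o 1) w)) = s o o • E (single o o 1) w :=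
    fun s w => by rw [mul, mul, single_mul_mul_single, ← h3, smul_single]; simp
  have hvv : E (single o o 1) (E (single o o 1) w0) = E (single o o 1) w0 := by
    rw [mul, single_mul_single_same, mul_one]
  generalize E (single o o 1) w0 = v at hv hvv
  have line : ∀ w, ∃ x : K, E (single o o 1) w = x • v := by
    obtain ⟨B, hB, φ, e1, e2⟩ := h5 v hv
    have : ∃ b : K, ∀ w, E (single o o 1) (B (E (single o o 1) w)) = b • E (single o o 1) w := by
      clear e2
      induction hB using Submodule.span_induction with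
      | mem _ hx =>
        obtain ⟨s, rfl⟩ := hx
        exact ⟨algebraMap k _ (s o o), fun w => by rw [sand, algebraMap_smul]⟩
      | zero => exact ⟨0, by simp⟩
      | add _ _ _ _ hx hy =>
        obtain ⟨b, hb⟩ := hx
        obtain ⟨c, hc⟩ := hy
        exact ⟨b + c, fun w => by rw [LinearMap.add_apply, map_add, hb, hc, add_smul]⟩
      | smul c _ _ hx =>
        obtain ⟨b, hb⟩ := hx
        exact ⟨c * b, fun w => by rw [LinearMap.smul_apply, map_smul, hb, mul_smul]⟩
    obtain ⟨b, hb⟩ := this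
    have b1 := hb v
    rw [hvv, e2, e1, one_smul, hvv] at b1
    have : b = 1 := smul_left_injective _ hv (b1.symm.trans (one_smul _ v).symm)
    exact fun w => ⟨_, by rw [← one_smul K (E _ w), ← this, ← hb, e2, map_smul, hvv]⟩
  let L : W → Submodule k W := fun w => LinearMap.range (ev w)
  have LT : ∀ h w, (L w).map (T h) = L (T h w) := fun h w => by
    refine le_antisymm ?_ ?_
    · rintro _ ⟨_, ⟨s, rfl⟩, rfl⟩
      exact (h4 h s).imp fun s' e => (e w).symm
    · rintro _ ⟨s, rfl⟩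
      obtain ⟨s', e⟩ := h4 h⁻¹ s
      refine ⟨_, ⟨s', rfl⟩, ?_⟩
      have := congrArg (T h) (e (T h w))
      rw [← Module.End.mul_apply, ← Module.End.mul_apply (T h⁻¹), ← map_mul, ← map_mul,
        mul_inv_cancel, inv_mul_cancel, map_one] at this
      exact this.symm
  have Lm : ∀ (x : K) w, (L w).map ((LinearMap.lsmul _ W x).restrictScalars k) = L (x • w) :=
    fun x w => by
      rw [← LinearMap.range_comp]
      exact congrArg _ (LinearMap.ext fun s => (map_smul (E s) x w).symm)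
  have T0 : ∀ h, T h v ≠ 0 := fun h e => hv (by
    rw [← Module.End.one_apply (R := k) v, ← map_one T, ← inv_mul_cancel h, map_mul,
      Module.End.mul_apply, e, map_zero])
  have exa : ∀ h, ∃ x : K, x ≠ 0 ∧ L (T h v) = L (x • v) := fun h => by
    obtain ⟨i, hi⟩ := ex _ (T0 h)
    obtain ⟨x, e⟩ := line (E (single o i 1) (T h v))
    rw [mul, single_mul_single_same, mul_one] at e
    have x0 : x ≠ 0 := fun z => hi (by
      rw [← mul_one (1 : k), ← single_mul_single_same 1 i o, ← mul, e, z, zero_smul, map_zero])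
    refine ⟨x, x0, (Submodule.eq_of_le_of_finrank_le ?_ ?_).symm⟩
    · rintro _ ⟨s, rfl⟩
      exact ⟨s * single o i 1, by simp only [ev, LinearMap.coe_mk, AddHom.coe_mk, ← e, mul]⟩
    · rw [← LT]
      refine (Submodule.finrank_map_le _ _).trans ?_
      conv_lhs => rw [← one_smul K v, ← inv_mul_cancel₀ x0, mul_smul, ← Lm]
      exact Submodule.finrank_map_le _ _
  choose x x0 hx using exa
  have LU : ∀ h y, (L (y • v)).map (T h) = L ((σ h y * x h) • v) := fun h y => by
    rw [LT, h1, ← Lm, hx, Lm, mul_smul]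
  have un : ∀ y z : K, L (y • v) = L (z • v) → ∃ c : k, y = algebraMap k _ c * z := fun y z e => by
    obtain ⟨s, e'⟩ := e.le ⟨1, (by simp [ev] : ev (y • v) 1 = y • v)⟩
    have := congrArg (E (single o o 1)) e'
    simp only [ev, LinearMap.coe_mk, AddHom.coe_mk, map_smul] at this
    rw [← hvv, sand, hvv, hvv, smul_comm, ← algebraMap_smul K, ← mul_smul] at this
    exact ⟨_, (smul_left_injective _ hv this).symm⟩
  obtain ⟨b, b0, hb⟩ := h0 x x0 fun h l => by
      obtain ⟨c, e⟩ := un _ _ (by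
        rw [← hx, map_mul, Module.End.mul_apply, ← LT, hx, LU] :
          L (x (h * l) • v) = L ((σ h (x l) * x h) • v))
      exact ⟨c, fun z => x0 _ (by rw [e, z, map_zero, zero_mul]), e⟩
  refine ⟨L (b • v), fun e => b0 (smul_left_injective _ hv ?_), inferInstance, ?_, fun h w hw => ?_⟩
  · simpa [ev] using e.le ⟨1, rfl⟩
  · have := FiniteDimensional.span_of_finite k (Set.finite_range fun i => E (single i o 1) (b • v))
    refine (Submodule.finrank_mono (t := Submodule.span k (Set.range fun i => E (single i o 1) (b • v)))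
      ?_).trans ((finrank_range_le_card _).trans (Fintype.card_fin d).le)
    rintro _ ⟨s, rfl⟩
    have e : s * single o o 1 = ∑ i, s i o • single i o 1 := by
      ext i j
      by_cases hj : o = j <;> simp [Matrix.sum_apply, mul_apply, single, hj]
    have : ev (b • v) s = ev (b • v) (s * single o o 1) := by
      simp only [ev, LinearMap.coe_mk, AddHom.coe_mk, ← mul, map_smul, hvv]
    rw [this, e, map_sum]
    exact Submodule.sum_mem _ fun i _ => by
      rw [map_smul]; exact Submodule.smul_mem _ _ (Submodule.subset_span ⟨i, rfl⟩)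
  · obtain ⟨r, e⟩ := hb h
    obtain ⟨s, e'⟩ := (LU h b).le ⟨w, hw, rfl⟩
    refine ⟨r • s, ?_⟩
    rw [← e', e, map_smul, mul_smul]
    simp only [ev, LinearMap.coe_mk, AddHom.coe_mk, map_smul]
    exact (algebraMap_smul K r _).symm

theorem jobDesc : JobDesc.{u} := by
  intro k _ ι _ H _ _ a W _ _ _ _ _ T d E
  refine desc (fun h => sg k (a h)) T E fun x x0 hc => ?_
  have alg : ∀ c : k, algebraMap k (KK k ι) c = algebraMap (MvPolynomial ι k) _ (MvPolynomial.C c) :=
    fun c => IsScalarTower.algebraMap_apply k (MvPolynomial ι k) _ c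
  obtain ⟨b, b0, hb⟩ := h90 (A := MvPolynomial ι k) (fun h => sg k (a h)) (fun h => sg_int _) x x0
    fun h l => by
      obtain ⟨c, c0, e⟩ := hc h l
      exact ⟨((IsUnit.mk0 c c0).map MvPolynomial.C).unit, by rw [e, alg, IsUnit.unit_spec]⟩
  refine ⟨b, b0, fun h => ?_⟩
  obtain ⟨c, hc, e⟩ := hb h
  obtain ⟨r, -, rfl⟩ := MvPolynomial.isUnit_iff_eq_C_of_isReduced.1 hc
  exact ⟨r, by rw [e, alg]⟩

end H17.Dd
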