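import Cfsg.Agent.H17.SGR1

/-! SG-C1: the first level. -/

set_option autoImplicit false

namespace H17.SG1

open Finsupp MvPolynomial Module H53.SG
open scoped Classical

universe v

variable {e n : ℕ} [NeZero (e * n)] {K : Type v} [Field K]

/-- the exchange of two units between the copies -/
noncomputable def mv (m : Mon e n) (k : Bool) (a b : ZMod (e * n)) : Mon e n :=
  m - single (k, b) 1 - single (!k, a) 1 + single (k, a) 1 + single (!k, b) 1

omit [NeZero (e * n)] in
theorem eta_eq (m : Mon e n) (k : Bool) (t : ZMod (e * n)) : eta m t = m (k, t) + m (!k, t) := by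
  cases k <;> simp [eta, add_comm]

omit [NeZero (e * n)] in
theorem mv_apply (m : Mon e n) (k : Bool) {a b : ZMod (e * n)} (hab : a ≠ b) :
    mv m k a b (k, b) = m (k, b) - 1 ∧ mv m k a b (k, a) = m (k, a) + 1 ∧
      mv m k a b (!k, a) = m (!k, a) - 1 ∧ mv m k a b (!k, b) = m (!k, b) + 1 := by
  simp [mv, hab, hab.symm]

theorem exists_of_cl {t t' : ZMod (e * n)} (h : cl t = cl t') : ∃ i : ℕ, t' = t + i * e := by
  have h1 : cl (((t' - t).val : ℕ) : ZMod (e * n)) = 0 := by
    rw [ZMod.natCast_zmod_val]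
    have := cl_add t (t' - t)
    rw [add_sub_cancel, ← h] at this
    simpa using this
  rw [cl_natCast, ZMod.natCast_eq_zero_iff] at h1
  obtain ⟨i, hi⟩ := h1
  refine ⟨i, ?_⟩
  rw [mul_comm (i : ZMod (e * n)), ← Nat.cast_mul, ← hi, ZMod.natCast_zmod_val, add_sub_cancel]

omit [NeZero (e * n)] in
theorem cl_e (t : ZMod (e * n)) (i : ℕ) : cl (t + (i : ZMod (e * n)) * (e : ZMod (e * n))) = cl t := by
  rw [← Nat.cast_mul, cl_add, cl_natCast]
  simp

theorem e_ne (h3 : 3 ≤ n) {i : ℕ} (h0 : 0 < i) (hi : i < 3) : (i * e : ZMod (e * n)) ≠ 0 := by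
  have he : 0 < e := Nat.pos_of_mul_pos_right (NeZero.pos (e * n))
  rw [← Nat.cast_mul, Ne, ZMod.natCast_eq_zero_iff, mul_comm i]
  intro h
  have := Nat.le_of_dvd h0 (Nat.dvd_of_mul_dvd_mul_left he h)
  omega

variable {p D : ℕ} [CharP K p] {c : Mon e n → K} (hS : Sup p c D) (hR : R1 p c D)
  {η δ w : ZMod (e * n) → ℕ} (hC : Car p η δ w)
include hS hR hC

theorem stepA {m : Mon e n} (hm : c m ≠ 0) (hd : dg m = D) (hη : eta m = η) {a b : ZMod (e * n)}
    (hab : a ≠ b) (hcl : cl a = cl b) (hw : w a = w b) (k : Bool) (h1 : m (k, b) ≠ 0)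
    (h2 : m (k, a) + 1 < p) :
    m (!k, a) ≠ 0 ∧ c (mv m k a b) ≠ 0 ∧ dg (mv m k a b) = D ∧ eta (mv m k a b) = η ∧
      (m (k, b) : K) * c m + ((m (!k, b) + 1 : ℕ) : K) * c (mv m k a b) = 0 := by
  have hr := hS.red m hm
  set m' : Mon e n := m - single (k, b) 1 + single (k, a) 1 with hm'
  have hd' : dg m' = D := (dg_move h1 _).trans hd
  have h3 := hR a b m' hab hcl (fun v => by
      have := hr v
      by_cases hv : (k, a) = v
      · subst hv
        simpa [hm', hab] using h2
      · simp only [hm', Finsupp.add_apply, single_eq_of_ne' hv, coe_tsub, Pi.sub_apply]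
        omega) hd' ⟨η, δ, w, hC, hw, fun t => by
      rw [← hη, eta_eq m' k, eta_eq m k]
      by_cases h4 : t = a
      · subst h4
        simp [hm', hab]
        omega
      · by_cases h5 : t = b
        · subst h5
          simp [hm', h4]
          omega
        · simp [hm', h4, h5]⟩
  have e1 : m' (k, a) ≠ 0 := by simp [hm']
  have e2 : m' (k, b) + 1 = m (k, b) := by
    simp [hm', hab.symm]
    omega
  have e3 : m' - single (k, a) 1 + single (k, b) 1 = m := by
    rw [hm', add_tsub_cancel_right, sub_add_single_one_cancel h1]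
  have e4 : m' (!k, a) = m (!k, a) := by simp [hm']
  have e5 : m' (!k, b) = m (!k, b) := by simp [hm']
  have e6 : m' - single (!k, a) 1 + single (!k, b) 1 = mv m k a b := by
    ext v
    by_cases hv : (k, a) = v
    · subst hv
      simp [hm', mv]
    · simp [hm', mv, single_eq_of_ne' hv]
  have h4 : cE c a b m' = (m (k, b) : K) * c m +
      if m (!k, a) = 0 then 0 else ((m (!k, b) + 1 : ℕ) : K) * c (mv m k a b) := by
    rw [← e4, ← e5, ← e6, cE, ← e2, Fintype.sum_bool]
    cases k
    · rw [if_neg e1, e3, add_comm]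
      rfl
    · rw [if_neg e1, e3]
      rfl
  rw [h3] at h4
  have h5 : (m (k, b) : K) * c m ≠ 0 := mul_ne_zero (fun h => h1
    (Nat.eq_zero_of_dvd_of_lt ((CharP.cast_eq_zero_iff K p _).1 h) (hr _))) hm
  have h6 : m (!k, a) ≠ 0 := fun h => h5 (by rw [h4, if_pos h, add_zero])
  rw [if_neg h6] at h4
  refine ⟨h6, fun h => h5 (by rw [h4, h, mul_zero, add_zero]), ?_, ?_, h4.symm⟩
  · rw [← e6, dg_move (e4 ▸ h6), hd']
  · funext t
    obtain ⟨a1, a2, a3, a4⟩ := mv_apply m k hab
    rw [← hη, eta_eq _ k, eta_eq m k]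
    by_cases h7 : t = a
    · rw [h7, a2, a3]
      omega
    · by_cases h8 : t = b
      · rw [h8, a1, a4]
        omega
      · simp [mv, h7, h8]

theorem stepB {a b : ZMod (e * n)} (hab : a ≠ b) (hcl : cl a = cl b) (hw : w a = w b) (k : Bool)
    (j : ℕ) : ∀ {m : Mon e n}, c m ≠ 0 → dg m = D → eta m = η → j ≤ m (k, b) → j + m (k, a) < p →
      j ≤ m (!k, a) ∧ j + m (!k, b) < p := by
  induction j with
  | zero => exact fun hm _ _ _ _ => ⟨Nat.zero_le _, by simpa using hS.red _ hm _⟩
  | succ j ih =>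
    intro m hm hd hη h1 h2
    obtain ⟨a1, a2, a3, a4, -⟩ := stepA hS hR hC hm hd hη hab hcl hw k (by omega) (by omega)
    obtain ⟨b1, b2, b3, b4⟩ := mv_apply m k hab
    have := ih a2 a3 a4 (by omega) (by omega)
    omega

theorem stepC {m : Mon e n} (hm : c m ≠ 0) (hd : dg m = D) (hη : eta m = η) {a b : ZMod (e * n)}
    (hab : a ≠ b) (hcl : cl a = cl b) (hw : w a = w b) : η a = η b ∧
      (η a = p - 1 ∨ (m (true, a) = m (false, b) ∧ m (true, b) = m (false, a))) := by
  have hr := hS.red m hm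
  have key : ∀ k a b, a ≠ b → cl a = cl b → w a = w b →
      min (m (k, b)) (p - 1 - m (k, a)) ≤ m (!k, a) ∧
        min (m (k, b)) (p - 1 - m (k, a)) + m (!k, b) < p := fun k a b h1 h2 h3 =>
    stepB hS hR hC h1 h2 h3 k _ hm hd hη (min_le_left _ _) (by
      have := hr (k, a)
      omega)
  have k1 := key false a b hab hcl hw
  have k2 := key true a b hab hcl hw
  have k3 := key false b a hab.symm hcl.symm hw.symm
  have k4 := key true b a hab.symm hcl.symm hw.symm
  have r1 := hr (false, a)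
  have r2 := hr (false, b)
  have r3 := hr (true, a)
  have r4 := hr (true, b)
  simp only [Bool.not_false, Bool.not_true] at k1 k2 k3 k4
  simp only [← hη, eta]
  omega

theorem w_per (hp : p.Prime) (hn : n.Prime) (h3 : 3 ≤ n) {m : Mon e n} (hm : c m ≠ 0)
    (hd : dg m = D) (hη : eta m = η) {t t' : ZMod (e * n)} (h : cl t = cl t') : w t = w t' := by
  have s1 : ∀ a b, cl a = cl b → w a = w b → w (a + 1) = w (b + 1) := fun a b h1 h2 => by
    by_cases hab : a = b
    · rw [hab]
    have h4 := (stepC hS hR hC hm hd hη hab h1 h2).1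
    have h5 := hC.eq a
    have h6 := hC.eq b
    rw [hC.per a b h1, h4, h2, h6] at h5
    exact (Nat.eq_of_mul_eq_mul_left hp.pos (Nat.add_left_cancel h5)).symm
  have s2 : ∀ (a : ZMod (e * n)) (j : ℕ), w a = w (a + j * e) → ∀ t, w t = w (t + j * e) :=
    fun a j h t => by
      have : ∀ i : ℕ, w (a + i) = w (a + i + j * e) := fun i => by
        induction i with
        | zero => simpa using h
        | succ i ih =>
          have := s1 _ _ (cl_e _ j).symm ih
          rwa [add_right_comm _ (j * e : ZMod (e * n)) 1, add_assoc a, ← Nat.cast_succ] at this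
      have := this (t - a).val
      rwa [ZMod.natCast_zmod_val, add_sub_cancel] at this
  have s3 : ∀ j : ℕ, (∀ t, w t = w (t + j * e)) → ∀ (i : ℕ) t, w t = w (t + (i * j : ℕ) * e) :=
    fun j h i t => by
      induction i with
      | zero => simp
      | succ i ih => rw [ih, h]; congr 1; push_cast; ring
  have s4 : ∀ t, w t = w (t + (1 : ℕ) * e) := by
    by_cases h1 : w 0 = w (0 + (1 : ℕ) * e)
    · exact s2 _ _ h1
    by_cases h2 : w (0 + (1 : ℕ) * e) = w (0 + (1 : ℕ) * e + (1 : ℕ) * e)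
    · exact s2 _ _ h2
    have h4 : w 0 = w (0 + (2 : ℕ) * e) := by
      have a1 := hC.w1 0
      have a2 := hC.w1 (0 + (1 : ℕ) * e)
      have a3 := hC.w1 (0 + (1 : ℕ) * e + (1 : ℕ) * e)
      rw [show (0 + (2 : ℕ) * e : ZMod (e * n)) = 0 + (1 : ℕ) * e + (1 : ℕ) * e by push_cast; ring]
      omega
    obtain ⟨l, hl⟩ := hn.odd_of_ne_two (by omega)
    intro t
    rw [s3 2 (s2 _ _ h4) (l + 1) t]
    congr 1
    have : ((e * n : ℕ) : ZMod (e * n)) = 0 := ZMod.natCast_self _
    rw [show (l + 1) * 2 = n + 1 by omega]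
    push_cast at this ⊢
    linear_combination this
  obtain ⟨i, rfl⟩ := exists_of_cl h
  simpa using s3 1 s4 i t

omit hS hR hC in
theorem jobC1 : JobC1.{v} := by
  intro p e n _ K _ _ c D hp hn h3 hS hR
  have per : ∀ m, c m ≠ 0 → dg m = D → ∀ t t', cl t = cl t' → eta m t = eta m t' :=
    fun m hm hd t t' h => by
      obtain ⟨δ, w, hC⟩ := hS.car m hm
      by_cases r : t = t'
      · rw [r]
      · exact (stepC hS hR hC hm hd rfl r h (w_per hS hR hC hp hn h3 hm hd rfl h)).1
  refine ⟨per, fun m hm hd t => ?_, fun m hm hd a b k hab hcl h1 h2 h4 => ?_⟩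
  · obtain ⟨δ, w, hC⟩ := hS.car m hm
    by_cases h1 : eta m t = p - 1
    · exact .inr (.inl h1)
    set b := t + (1 : ℕ) * e with hb
    set d := t + (2 : ℕ) * e with hd'
    have n1 : t ≠ b := by simpa [hb] using e_ne (e := e) h3 (i := 1) one_pos (by norm_num)
    have n2 : t ≠ d := by simpa [hd'] using e_ne (e := e) h3 (i := 2) two_pos (by norm_num)
    have n3 : b ≠ d := fun r => n1 (by
      rw [hb, hd'] at r
      rw [hb]
      push_cast at r ⊢
      linear_combination r)
    have c1 : cl t = cl b := (cl_e t 1).symm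
    have c2 : cl t = cl d := (cl_e t 2).symm
    have hw : ∀ s s', cl s = cl s' → w s = w s' := fun s s' h => w_per hS hR hC hp hn h3 hm hd rfl h
    have key : ∀ m', c m' ≠ 0 → dg m' = D → eta m' = eta m →
        m' (false, t) = m' (false, b) ∧ m' (true, t) = m' (false, t) := fun m' a1 a2 a3 => by
      have k1 := (stepC hS hR hC a1 a2 a3 n1 c1 (hw _ _ c1)).2.resolve_left h1
      have k2 := (stepC hS hR hC a1 a2 a3 n2 c2 (hw _ _ c2)).2.resolve_left h1
      have k3 := (stepC hS hR hC a1 a2 a3 n3 (c1.symm.trans c2)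
        (hw _ _ (c1.symm.trans c2))).2.resolve_left (per m hm hd t b c1 ▸ h1)
      omega
    obtain ⟨k1, k2⟩ := key m hm hd rfl
    have hr := hS.red m hm (false, t)
    by_cases h5 : m (false, b) ≠ 0 ∧ m (false, t) + 1 < p
    · obtain ⟨-, a2, a3, a4, -⟩ := stepA hS hR hC hm hd rfl n1 c1 (hw _ _ c1) false h5.1 h5.2
      obtain ⟨b1, b2, -, -⟩ := mv_apply m false n1
      have := key _ a2 a3 a4
      omega
    · simp only [eta]
      omega
  · obtain ⟨δ, w, hC⟩ := hS.car m hm
    obtain ⟨-, -, -, -, a5⟩ := stepA hS hR hC hm hd rfl hab hcl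
      (w_per hS hR hC hp hn h3 hm hd rfl hcl) k h2 h4
    have h5 : m (k, b) + (m (!k, b) + 1) = p := by
      rw [per m hm hd a b hcl, eta_eq m k] at h1
      omega
    have h6 : (m (k, b) : K) + ((m (!k, b) + 1 : ℕ) : K) = 0 := by
      rw [← Nat.cast_add, h5, CharP.cast_eq_zero]
    have h7 : (m (k, b) : K) ≠ 0 := fun h => h2
      (Nat.eq_zero_of_dvd_of_lt ((CharP.cast_eq_zero_iff K p _).1 h) (hS.red m hm _))
    exact mul_left_cancel₀ h7 (by
      change _ * c (mv m k a b) = _
      linear_combination c (mv m k a b) * h6 - a5)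

end H17.SG1
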