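import Cfsg.Agent.H53.SGSpec

/-! SG-R1: the first relation. -/

set_option autoImplicit false

namespace H17.SG1

open Finsupp MvPolynomial Module H53.SG
open scoped Classical

universe v

variable {e n : ℕ} [NeZero (e * n)] {K : Type v} [Field K]

theorem dg_eq (m : Mon e n) : dg m = m.degree := (degree_eq_sum m).symm

theorem dg_add (m m' : Mon e n) : dg (m + m') = dg m + dg m' := by simp [dg_eq]

theorem dg_single (v : Vr e n) (k : ℕ) : dg (single v k) = k := by simp [dg_eq]

theorem dg_move {m : Mon e n} {v : Vr e n} (h : m v ≠ 0) (w : Vr e n) :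
    dg (m - single v 1 + single w 1) = dg m := by
  conv_rhs => rw [← sub_add_single_one_cancel h]
  simp only [dg_add, dg_single]

/-- no reduced term of degree `D` -/
def W (K : Type v) [Field K] (p D : ℕ) : Submodule K (MvPolynomial (Vr e n) K) where
  carrier := {G | ∀ m, Red p m → dg m = D → coeff m G = 0}
  zero_mem' := fun _ _ _ => rfl
  add_mem' := fun ha hb m h1 h2 => by rw [coeff_add, ha m h1 h2, hb m h1 h2, add_zero]
  smul_mem' := fun c _ ha m h1 h2 => by rw [coeff_smul, ha m h1 h2, smul_zero]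

theorem coeff_sg_monomial (A : Matrix (ZMod (e * n)) (ZMod (e * n)) K) (m : Mon e n) (c : K)
    {m' : Mon e n} (h : dg m' ≠ dg m) : coeff m' (sg A (monomial m c)) = 0 := by
  have h1 := (isHomogeneous_monomial c (dg_eq m).symm).aeval
    (fun v : Vr e n => ∑ t, A t v.2 • (X (v.1, t) : MvPolynomial (Vr e n) K)) (n := 1) fun v =>
      IsHomogeneous.sum _ _ _ fun t _ =>
        (homogeneousSubmodule _ K 1).smul_mem _ (isHomogeneous_X _ _)
  rw [one_mul] at h1
  exact h1.coeff_eq_zero (by rwa [← dg_eq])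

theorem coeff_sg (A : Matrix (ZMod (e * n)) (ZMod (e * n)) K) (G : MvPolynomial (Vr e n) K)
    {m' : Mon e n} (h : ∀ m, coeff m G ≠ 0 → coeff m' (sg A (monomial m (coeff m G))) = 0) :
    coeff m' (sg A G) = 0 := by
  rw [G.as_sum, map_sum, coeff_sum]
  exact Finset.sum_eq_zero fun m hm => h m (MvPolynomial.mem_support_iff.1 hm)

theorem sg_mem {p D : ℕ} [CharP K p] (hp : p.Prime) (A : Matrix (ZMod (e * n)) (ZMod (e * n)) K)
    (G : MvPolynomial (Vr e n) K) (hG : G ∈ W K p D) : sg A G ∈ W K p D := fun m' h1 h2 => by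
  have := Fact.mk hp
  refine coeff_sg A G fun m hm => ?_
  by_cases hd : dg m' = dg m
  swap
  · exact coeff_sg_monomial A m _ hd
  obtain ⟨v, hv⟩ : ∃ v, p ≤ m v := by
    by_contra! h
    exact hm (hG m h (hd.symm.trans h2))
  have h3 : monomial m (coeff m G) = monomial (m - single v p) (coeff m G) * X v ^ p := by
    rw [X_pow_eq_monomial, monomial_mul, mul_one, tsub_add_cancel_of_le (single_le_iff.2 hv)]
  rw [h3, map_mul, map_pow, sg, aeval_X, sum_pow_char, Finset.mul_sum, coeff_sum]
  refine Finset.sum_eq_zero fun t _ => ?_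
  rw [smul_pow, mul_smul_comm, coeff_smul, X_pow_eq_monomial, coeff_mul_monomial',
    if_neg fun h => (h1 _).not_ge (single_le_iff.1 h), smul_zero]

theorem E_mem {p D : ℕ} [CharP K p] (a b : ZMod (e * n)) (G : MvPolynomial (Vr e n) K)
    (hG : G ∈ W K p D) : E K a b G ∈ W K p D := fun m h1 h2 => by
  rw [E_apply, coeff_sum]
  refine Finset.sum_eq_zero fun k _ => ?_
  rw [coeff_X_mul', coeff_pderiv]
  split_ifs with h
  swap
  · rfl
  have h3 : ∀ v, (m - single (k, a) 1 : Mon e n) v < p := fun v => (Nat.sub_le _ _).trans_lt (h1 v)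
  by_cases h4 : (m - single (k, a) 1 : Mon e n) (k, b) + 1 = p
  · rw [← Nat.cast_succ, Nat.succ_eq_add_one, h4, CharP.cast_eq_zero, mul_zero]
  · rw [hG _ (fun v => ?_) ((dg_move (Finsupp.mem_support_iff.1 h) _).trans h2), zero_mul]
    have := h3 v
    by_cases hv : (k, b) = v
    · subst hv
      rw [Finsupp.add_apply, single_eq_same]
      omega
    · rwa [Finsupp.add_apply, single_eq_of_ne' hv, add_zero]

theorem jobR1 : JobR.{v} (fun p c D => R1 p c D) := by
  intro hM hO hN hU p e n r _ K _ _ _ 𝒜 θ Φ D hp hn h3 hK hD hev hS hm a b m hab hcl hr hd hC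
  obtain ⟨f, hf⟩ := hU p e n r K _ D hp h3 hS hm a b hab hcl
  have h1 : 1 ≤ r := by rcases hm with h | h <;> omega
  have h2 := hO hM p e n r K 𝒜 θ (cl a) (W K p D) Φ f hp hn h1 hD (fun A _ => sg_mem hp A)
    (fun a b _ _ => E_mem a b) (fun A hA => ?_) hf.fd
    (fun G hG m h1 h2 => by rw [coeff_dop, hG m h1 h2, mul_zero]) (fun m _ _ => by
      rw [coeff_dop]
      by_cases h : coeff m Φ = 0
      · rw [h, mul_zero]
      · rw [hf.zero m h, zero_mul]) a b rfl hcl.symm m hr hd
  · rw [coeff_dop, coeff_E hab] at h2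
    exact (hf.c1 m hC).elim (mul_eq_zero.1 h2).resolve_left id
  · refine Submodule.span_le.2 ?_ (hN p e n K hp hK D (sg A Φ - Φ) (fun m hm => ?_) fun x y => ?_)
    · rintro _ ⟨m, v, h4, rfl⟩ m' h5 h6
      rw [coeff_sub, coeff_monomial, coeff_monomial, if_neg, if_neg, sub_zero]
      · rintro rfl
        rw [dg_add, dg_single] at h6
        have := hp.two_le
        omega
      · rintro rfl
        have := h5 v
        rw [Finsupp.add_apply, single_eq_same] at this
        omega
    · by_contra! h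
      refine hm ?_
      rw [coeff_sub, coeff_sg A Φ fun m' hm' => coeff_sg_monomial A m' _ (by
        have := hS.deg m' hm'
        omega), by_contra fun r => (hS.deg m r).not_gt h, sub_zero]
    · have := hev A hA x y
      unfold ev at this ⊢
      rw [map_sub, this, sub_self]

end H17.SG1
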